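import Mathlib
import Cfsg.Prelude.Def_Characters
import Cfsg.Agent.Lib.Helper82.CliffordInd

set_option autoImplicit false
set_option linter.unusedSectionVars false
set_option linter.style.haveILetI false

/-!
# Clifford correspondence for an intermediate subgroup containing the inertia group

Let `N` be normal in `G`, `θ ∈ Irr(N)` and `N ≤ T ≤ G` with the inertia group of `θ` contained
in `T`.  Then induction is a bijection from the irreducible characters of `T` over `θ` to the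
irreducible characters of `G` over `θ`, preserving the multiplicity of `θ`.
-/

namespace Cfsg.Agent.Lib.Helper16

open Cfsg.Agent.Lib.Helper3 Cfsg.Agent.Lib.Helper75
open scoped ComplexConjugate

universe u

variable {G : Type u} [Group G] (N : Subgroup G) [hN : N.Normal] [Fintype N]
  (T : Subgroup G) [Fintype T] (hNT : N ≤ T)

/-- the degree of an irreducible character of `T` over `θ`, by Clifford's theorem in `T` -/
theorem res_one_eq_le {ψ : T → ℂ} (hψ : Cfsg.IsIrrCharacter T ψ) {θ : N → ℂ}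
    (hθ : Cfsg.IsIrrCharacter N θ)
    (h : Cfsg.classInner (fun n : N => ψ ⟨n, hNT n.2⟩) θ ≠ 0) :
    ψ 1 = Cfsg.classInner (fun n : N => ψ ⟨n, hNT n.2⟩) θ *
      ((inertia N θ).relIndex T : ℂ) * θ 1 := by
  haveI : Fintype (N.subgroupOf T) := Fintype.ofFinite _
  have hθ' : Cfsg.IsIrrCharacter (N.subgroupOf T)
      (fun n' : N.subgroupOf T => θ (Subgroup.subgroupOfEquivOfLe hNT n')) :=
    Cfsg.Agent.Lib.Helper80.isIrrCharacter_comp_mulEquiv (Subgroup.subgroupOfEquivOfLe hNT) hθ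
  have h' : Cfsg.classInner (fun n' : N.subgroupOf T => ψ n')
      (fun n' : N.subgroupOf T => θ (Subgroup.subgroupOfEquivOfLe hNT n')) ≠ 0 := by
    rw [classInner_subgroupOf N T hNT]
    exact h
  have h1 := res_one_eq (N.subgroupOf T) hψ hθ' h'
  rw [card_constit_eq_index_inertia (N.subgroupOf T) hψ hθ' h',
    classInner_subgroupOf N T hNT] at h1
  have h3 : inertia (N.subgroupOf T)
      (fun n' : N.subgroupOf T => θ (Subgroup.subgroupOfEquivOfLe hNT n')) =
      (inertia N θ).subgroupOf T := by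
    ext t
    rw [mem_inertia_iff, Subgroup.mem_subgroupOf, mem_inertia_iff, conjChar_subgroupOf N T hNT]
    constructor
    · intro hh
      funext n
      have := congrFun hh ((Subgroup.subgroupOfEquivOfLe hNT).symm n)
      simp only [MulEquiv.apply_symm_apply] at this
      exact this
    · intro hh
      rw [hh]
  rw [h3] at h1
  rw [h1]
  congr 1

variable [Fintype G]

/-- Let `T` contain the inertia group of `θ ∈ Irr(N)`, `χ ∈ Irr(G)`, and `ψ ∈ Irr(T)` over `θ`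
with `⟨ψ^G, χ⟩ ≠ 0`.  Then `ψ^G = χ`, the multiplicities of `θ` agree, and `ψ` is the unique
such character of `T`. -/
theorem clifford_unique_le {χ : G → ℂ} (hχ : Cfsg.IsIrrCharacter G χ) {θ : N → ℂ}
    (hθ : Cfsg.IsIrrCharacter N θ) (hT : inertia N θ ≤ T)
    {ψ : T → ℂ} (hψ : Cfsg.IsIrrCharacter T ψ)
    (hψθ : Cfsg.classInner (fun n : N => ψ ⟨n, hNT n.2⟩) θ ≠ 0)
    (hψχ : Cfsg.classInner (Cfsg.indFun T ψ) χ ≠ 0) :
    Cfsg.indFun T ψ = χ ∧
      Cfsg.classInner (fun n : N => χ n) θ = Cfsg.classInner (fun n : N => ψ ⟨n, hNT n.2⟩) θ ∧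
      ∀ ψ' : T → ℂ, Cfsg.IsIrrCharacter T ψ' →
      Cfsg.classInner (fun n : N => ψ' ⟨n, hNT n.2⟩) θ ≠ 0 →
      Cfsg.classInner (Cfsg.indFun T ψ') χ ≠ 0 → ψ' = ψ := by
  classical
  haveI : Fintype (Cfsg.IrrCharacter T) := Fintype.ofFinite _
  haveI : Fintype (Cfsg.IrrCharacter G) := Fintype.ofFinite _
  have hχc := isCharacter_of_irr hχ
  obtain ⟨a, ha, hsum⟩ := char_eq_sum_irr (isCharacter_res T hχc)
  have hf : ∀ ψ : Cfsg.IrrCharacter T, ∃ f : ℕ,
      Cfsg.classInner (fun n : N => (ψ : T → ℂ) ⟨n, hNT n.2⟩) θ = f :=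
    fun ψ => classInner_char_nat (isCharacter_res_le N T hNT (isCharacter_of_irr ψ.2))
      (isCharacter_of_irr hθ)
  choose f hf using hf
  obtain ⟨e, he⟩ := classInner_char_nat (isCharacter_res N hχc) (isCharacter_of_irr hθ)
  have hres : (fun n : N => χ n) =
      ∑ ψ : Cfsg.IrrCharacter T, (a ψ : ℂ) • (fun n : N => (ψ : T → ℂ) ⟨n, hNT n.2⟩) := by
    funext n
    have := congrFun hsum ⟨n, hNT n.2⟩
    simp only [Finset.sum_apply, Pi.smul_apply, smul_eq_mul] at this ⊢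
    exact this
  have he2 : e = ∑ ψ, a ψ * f ψ := by
    have : (e : ℂ) = ((∑ ψ, a ψ * f ψ : ℕ) : ℂ) := by
      rw [← he, hres, classInner_sum_left]
      push_cast
      refine Finset.sum_congr rfl (fun ψ _ => ?_)
      rw [classInner_smul_left, hf ψ]
    exact_mod_cast this
  -- multiplicities of a character of `T` over `θ` inducing to something containing `χ`
  have key : ∀ ψ₁ : Cfsg.IrrCharacter T,
      Cfsg.classInner (fun n : N => (ψ₁ : T → ℂ) ⟨n, hNT n.2⟩) θ ≠ 0 →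
      Cfsg.classInner (Cfsg.indFun T (ψ₁ : T → ℂ)) χ ≠ 0 → a ψ₁ ≠ 0 ∧ f ψ₁ ≠ 0 := by
    intro ψ₁ h1 h2
    constructor
    · intro h0
      apply h2
      rw [Cfsg.Agent.Lib.Helper75.frobenius_reciprocity T (ψ₁ : T → ℂ)
        (isClassFunction_of_isCharacter hχc), classInner_conj_symm, ha ψ₁, h0]
      simp
    · intro h0
      apply h1
      rw [hf ψ₁, h0]
      simp
  set ψ₀ : Cfsg.IrrCharacter T := ⟨ψ, hψ⟩ with hψ₀
  obtain ⟨ha0, hf0⟩ := key ψ₀ hψθ hψχ
  have hfe : f ψ₀ ≤ e := by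
    rw [he2]
    calc f ψ₀ ≤ a ψ₀ * f ψ₀ := Nat.le_mul_of_pos_left _ (Nat.pos_of_ne_zero ha0)
      _ ≤ ∑ ψ, a ψ * f ψ := Finset.single_le_sum (f := fun ψ => a ψ * f ψ)
          (fun _ _ => Nat.zero_le _) (Finset.mem_univ ψ₀)
  have he0 : e ≠ 0 := by
    have := Nat.pos_of_ne_zero hf0
    omega
  have h : Cfsg.classInner (fun n : N => χ n) θ ≠ 0 := by
    rw [he]
    exact_mod_cast he0
  have hψ1 : ψ 1 = (f ψ₀ : ℂ) * ((inertia N θ).relIndex T : ℂ) * θ 1 := by
    have := res_one_eq_le N T hNT hψ hθ hψθ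
    rw [show Cfsg.classInner (fun n : N => ψ ⟨n, hNT n.2⟩) θ = f ψ₀ from hf ψ₀] at this
    exact this
  have hidx : (inertia N θ).relIndex T * T.index = (inertia N θ).index :=
    Subgroup.relIndex_mul_index hT
  have hχ1 : χ 1 = (e : ℂ) * ((inertia N θ).index : ℂ) * θ 1 := by
    rw [res_one_eq N hχ hθ h, he, card_constit_eq_index_inertia N hχ hθ h]
  have hI : Cfsg.IsCharacter G (Cfsg.indFun T ψ) :=
    isCharacter_indFun T (isCharacter_of_irr hψ)
  have hI1 : Cfsg.indFun T ψ 1 =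
      (T.index : ℂ) * ((f ψ₀ : ℂ) * ((inertia N θ).relIndex T : ℂ) * θ 1) := by
    rw [indFun_one, hψ1]
  have hθ1 := Cfsg.Agent.Lib.Helper80.char_one_eq_charDegree (isCharacter_of_irr hθ)
  have hdeg : Cfsg.charDegree (Cfsg.indFun T ψ) ≤ Cfsg.charDegree χ := by
    have h1 : Cfsg.charDegree (Cfsg.indFun T ψ) =
        T.index * (f ψ₀ * (inertia N θ).relIndex T * Cfsg.charDegree θ) := by
      have := Cfsg.Agent.Lib.Helper80.char_one_eq_charDegree hI
      rw [hI1, hθ1] at this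
      exact_mod_cast this.symm
    have h2 : Cfsg.charDegree χ = e * (inertia N θ).index * Cfsg.charDegree θ := by
      have := Cfsg.Agent.Lib.Helper80.char_one_eq_charDegree hχc
      rw [hχ1, hθ1] at this
      exact_mod_cast this.symm
    rw [h1, h2, ← hidx]
    calc T.index * (f ψ₀ * (inertia N θ).relIndex T * Cfsg.charDegree θ)
        = f ψ₀ * ((inertia N θ).relIndex T * T.index * Cfsg.charDegree θ) := by ring
      _ ≤ e * ((inertia N θ).relIndex T * T.index * Cfsg.charDegree θ) :=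
          Nat.mul_le_mul_right _ hfe
      _ = e * ((inertia N θ).relIndex T * T.index) * Cfsg.charDegree θ := by ring
  have heq := Cfsg.Agent.Lib.Helper80.eq_of_constituent_of_degree_le hI hχ hψχ hdeg
  have hfe' : f ψ₀ = e := by
    have h3 : (T.index : ℂ) * ((f ψ₀ : ℂ) * ((inertia N θ).relIndex T : ℂ) * θ 1) =
        (e : ℂ) * ((inertia N θ).index : ℂ) * θ 1 := by
      rw [← hI1, heq, hχ1]
    have hθ10 : θ 1 ≠ 0 := Cfsg.Agent.Lib.Helper80.char_one_ne_zero hθ
    have hT0 : ((inertia N θ).index : ℂ) ≠ 0 := by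
      exact_mod_cast (Subgroup.index_ne_zero_of_finite (H := inertia N θ))
    have hidx' : ((inertia N θ).index : ℂ) =
        ((inertia N θ).relIndex T : ℂ) * (T.index : ℂ) := by
      rw [← hidx]
      push_cast
      ring
    have h4 : ((inertia N θ).index : ℂ) * θ 1 * (f ψ₀ : ℂ) =
        ((inertia N θ).index : ℂ) * θ 1 * e := by
      rw [hidx'] at h3 ⊢
      linear_combination h3
    exact_mod_cast mul_left_cancel₀ (mul_ne_zero hT0 hθ10) h4
  refine ⟨heq, ?_, ?_⟩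
  · rw [he, hf ψ₀, hfe']
  intro ψ' hψ' h1 h2
  by_contra hne
  set ψ₁ : Cfsg.IrrCharacter T := ⟨ψ', hψ'⟩ with hψ₁
  obtain ⟨ha1, hf1⟩ := key ψ₁ h1 h2
  have hne' : ψ₀ ≠ ψ₁ := by
    intro h
    apply hne
    have := congrArg (fun x : Cfsg.IrrCharacter T => (x : T → ℂ)) h
    exact this.symm
  have hle : a ψ₀ * f ψ₀ + a ψ₁ * f ψ₁ ≤ e := by
    rw [he2, ← Finset.sum_pair (f := fun ψ => a ψ * f ψ) hne']
    exact Finset.sum_le_sum_of_subset (Finset.subset_univ _)
  have h5 : f ψ₀ ≤ a ψ₀ * f ψ₀ := Nat.le_mul_of_pos_left _ (Nat.pos_of_ne_zero ha0)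
  have h6 : 0 < a ψ₁ * f ψ₁ := Nat.mul_pos (Nat.pos_of_ne_zero ha1) (Nat.pos_of_ne_zero hf1)
  omega

/-- **Clifford correspondence** (irreducibility, intermediate subgroup): inducing an irreducible
character of a subgroup containing the inertia group and lying over `θ` gives an irreducible
character, with the same multiplicity of `θ`. -/
theorem induced_irr_le {θ : N → ℂ}
    (hθ : Cfsg.IsIrrCharacter N θ) (hT : inertia N θ ≤ T)
    {ψ : T → ℂ} (hψ : Cfsg.IsIrrCharacter T ψ)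
    (hψθ : Cfsg.classInner (fun n : N => ψ ⟨n, hNT n.2⟩) θ ≠ 0) :
    Cfsg.IsIrrCharacter G (Cfsg.indFun T ψ) ∧
      Cfsg.classInner (fun n : N => Cfsg.indFun T ψ n) θ =
        Cfsg.classInner (fun n : N => ψ ⟨n, hNT n.2⟩) θ := by
  classical
  haveI : Fintype (Cfsg.IrrCharacter G) := Fintype.ofFinite _
  have hI : Cfsg.IsCharacter G (Cfsg.indFun T ψ) :=
    isCharacter_indFun T (isCharacter_of_irr hψ)
  obtain ⟨m, hm, hsum⟩ := char_eq_sum_irr hI
  have hex : ∃ χ : Cfsg.IrrCharacter G, m χ ≠ 0 := by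
    by_contra hcon
    push Not at hcon
    have h0 : Cfsg.indFun T ψ 1 = 0 := by
      rw [hsum]
      simp [hcon]
    rw [indFun_one] at h0
    have hT0 : (T.index : ℂ) ≠ 0 := by
      exact_mod_cast (Subgroup.index_ne_zero_of_finite (H := T))
    exact (mul_ne_zero hT0 (Cfsg.Agent.Lib.Helper80.char_one_ne_zero hψ)) h0
  obtain ⟨χ, hχm⟩ := hex
  have hne : Cfsg.classInner (Cfsg.indFun T ψ) (χ : G → ℂ) ≠ 0 := by
    rw [hm χ]
    exact_mod_cast hχm
  obtain ⟨h1, h2, -⟩ := clifford_unique_le N T hNT χ.2 hθ hT hψ hψθ hne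
  rw [h1]
  exact ⟨χ.2, h2⟩

/-- **Clifford correspondence** (surjectivity, intermediate subgroup). -/
theorem exists_induced_le {χ : G → ℂ} (hχ : Cfsg.IsIrrCharacter G χ) {θ : N → ℂ}
    (hθ : Cfsg.IsIrrCharacter N θ) (hT : inertia N θ ≤ T)
    (h : Cfsg.classInner (fun n : N => χ n) θ ≠ 0) :
    ∃ ψ : T → ℂ, Cfsg.IsIrrCharacter T ψ ∧ Cfsg.indFun T ψ = χ ∧
      Cfsg.classInner (fun n : N => ψ ⟨n, hNT n.2⟩) θ ≠ 0 := by
  classical
  haveI : Fintype (Cfsg.IrrCharacter T) := Fintype.ofFinite _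
  have hχc := isCharacter_of_irr hχ
  obtain ⟨a, ha, hsum⟩ := char_eq_sum_irr (isCharacter_res T hχc)
  have hres : (fun n : N => χ n) =
      ∑ ψ : Cfsg.IrrCharacter T, (a ψ : ℂ) • (fun n : N => (ψ : T → ℂ) ⟨n, hNT n.2⟩) := by
    funext n
    have := congrFun hsum ⟨n, hNT n.2⟩
    simp only [Finset.sum_apply, Pi.smul_apply, smul_eq_mul] at this ⊢
    exact this
  have hex : ∃ ψ : Cfsg.IrrCharacter T, a ψ ≠ 0 ∧
      Cfsg.classInner (fun n : N => (ψ : T → ℂ) ⟨n, hNT n.2⟩) θ ≠ 0 := by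
    by_contra hcon
    push Not at hcon
    apply h
    rw [hres, classInner_sum_left]
    apply Finset.sum_eq_zero
    intro ψ _
    rw [classInner_smul_left]
    by_cases h0 : a ψ = 0
    · rw [h0]
      simp
    · rw [hcon ψ h0, mul_zero]
  obtain ⟨ψ, ha0, hψθ⟩ := hex
  have hψχ : Cfsg.classInner (Cfsg.indFun T (ψ : T → ℂ)) χ ≠ 0 := by
    rw [Cfsg.Agent.Lib.Helper75.frobenius_reciprocity T (ψ : T → ℂ)
      (isClassFunction_of_isCharacter hχc), classInner_conj_symm, ha ψ]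
    simp [ha0]
  obtain ⟨h1, -, -⟩ := clifford_unique_le N T hNT hχ hθ hT ψ.2 hψθ hψχ
  exact ⟨ψ, ψ.2, h1, hψθ⟩

end Cfsg.Agent.Lib.Helper16
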