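import Mathlib
import Cfsg.Prelude.Def_Blocks
import Cfsg.Agent.Lib.Helper16.FirstMain
import Cfsg.Agent.Lib.Helper16.SylowCent

/-!
# Brauer's first main theorem: defect groups of induced blocks, uniqueness
-/

set_option autoImplicit false

namespace Cfsg.Agent.Lib.Helper16

open Cfsg
open scoped ComplexConjugate

section
variable {G : Type*} [Group G] [Fintype G] {M : Ideal Cfsg.AlgInt}

/-- `c` (in the normalizer of `D`) controls its own fusion in `C_G(D)` -/
def Fus (D : Subgroup G) (c : Subgroup.normalizer (D : Set G)) : Prop :=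
  ∀ h : Subgroup.normalizer (D : Set G), IsConj (c : G) (h : G) →
    (h : G) ∈ Subgroup.centralizer (D : Set G) → IsConj c h

theorem fus_of_sylow {p : ℕ} [Fact p.Prime] (D : Subgroup G) (hD : IsPGroup p D)
    (c : Subgroup.normalizer (D : Set G))
    (P0 : Sylow p (Subgroup.centralizer ({c} : Set (Subgroup.normalizer (D : Set G)))))
    (hP0 : D.subgroupOf (Subgroup.normalizer (D : Set G)) =
      (P0 : Subgroup (Subgroup.centralizer ({c} : Set (Subgroup.normalizer (D : Set G))))).map
        (Subgroup.centralizer ({c} : Set (Subgroup.normalizer (D : Set G)))).subtype) :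
    (c : G) ∈ Subgroup.centralizer (D : Set G) ∧ Fus D c := by
  obtain ⟨S, hS⟩ := exists_sylow_eq_of_subgroupOf D hD c P0 hP0
  constructor
  · rw [Subgroup.mem_centralizer_iff]
    intro d hd
    rw [hS] at hd
    obtain ⟨y, -, rfl⟩ := hd
    exact (Subgroup.mem_centralizer_iff.mp y.2 (c : G) (Set.mem_singleton _)).symm
  · intro h hconj hhD
    obtain ⟨t, ht⟩ := isConj_iff.mp hconj
    obtain ⟨n, hn, hn'⟩ := exists_normalizer_conj D (c : G) S hS t (ht ▸ hhD)
    rw [isConj_iff]
    refine ⟨⟨n, hn⟩, Subtype.ext ?_⟩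
    simp only [Subgroup.coe_mul, Subgroup.coe_inv]
    rw [hn', ht]

/-- at an element of `C_G(D)` controlling its fusion, the Brauer central character is the
central character -/
theorem brauerCentralChar_of_fus (D : Subgroup G) [Fintype (Subgroup.normalizer (D : Set G))]
    (ξ : Cfsg.IrrCharacter (Subgroup.normalizer (D : Set G)))
    (c : Subgroup.normalizer (D : Set G)) (hc : (c : G) ∈ Subgroup.centralizer (D : Set G))
    (hF : Fus D c) :
    Cfsg.brauerCentralChar D (Subgroup.normalizer (D : Set G))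
      (ξ : Subgroup.normalizer (D : Set G) → ℂ) (c : G) =
      Cfsg.centralChar (ξ : Subgroup.normalizer (D : Set G) → ℂ) c := by
  classical
  rw [brauerCentralChar_eq_omega]
  have e : brRes D (Subgroup.normalizer (D : Set G)) (classInd (c : G)) = classInd c := by
    funext h
    unfold brRes classInd
    by_cases h1 : IsConj c h
    · obtain ⟨n, hn⟩ := isConj_iff.mp h1
      have hh : (h : G) = (n : G) * (c : G) * (n : G)⁻¹ := by rw [← hn]; simp
      have h2 : (h : G) ∈ Subgroup.centralizer (D : Set G) := by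
        rw [hh]
        exact (conj_mem_centralizer_iff n.2 _).mpr hc
      have h3 : IsConj (c : G) (h : G) := isConj_iff.mpr ⟨(n : G), hh.symm⟩
      rw [if_pos h2, if_pos h3, if_pos h1]
    · rw [if_neg h1]
      by_cases h2 : (h : G) ∈ Subgroup.centralizer (D : Set G)
      · rw [if_pos h2, if_neg (fun h3 => h1 (hF h h3 h2))]
      · rw [if_neg h2]
  rw [e, omega_classInd (irrCharacter_conj_eq ξ)]

/-- linear extension of block induction, Brauer form -/
theorem omega_brRes_sub {p : ℕ} [Fact p.Prime] (hM : Cfsg.IsPModular p M) (P H : Subgroup G)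
    [Fintype H] (hP : IsPGroup p P) (hPH : P ≤ H) (hHN : H ≤ Subgroup.normalizer (P : Set G))
    (ξ : Cfsg.IrrCharacter H) (χ : Cfsg.IrrCharacter G)
    (h : ∀ g : G, MemLocalIdeal M (Cfsg.inducedCentralChar H (ξ : H → ℂ) g -
      Cfsg.centralChar (χ : G → ℂ) g)) {α : G → ℂ} (hα : IsRClass M α) :
    MemLocalIdeal M (omega (ξ : H → ℂ) (brRes P H α) - omega (χ : G → ℂ) α) := by
  classical
  have hMp := isPrime_of_isPModular hM
  apply memLocalIdeal_of_linear hMp
    (fun α => omega (ξ : H → ℂ) (brRes P H α) - omega (χ : G → ℂ) α) _ _ _ hα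
  · intro α β
    show omega (ξ : H → ℂ) (brRes P H (α + β)) - omega (χ : G → ℂ) (α + β) = _
    rw [brRes_add, omega_add, omega_add]; ring
  · intro c α
    show omega (ξ : H → ℂ) (brRes P H (c • α)) - omega (χ : G → ℂ) (c • α) = _
    rw [brRes_smul, omega_smul, omega_smul]; ring
  · intro g
    show MemLocalIdeal M (omega (ξ : H → ℂ) (brRes P H (classInd g)) -
      omega (χ : G → ℂ) (classInd g))
    rw [← brauerCentralChar_eq_omega, omega_classInd (irrCharacter_conj_eq χ)]
    have h2 := inducedCentralChar_sub_brauer hM P H hP hPH hHN ξ g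
    have e : Cfsg.brauerCentralChar P H (ξ : H → ℂ) g - Cfsg.centralChar (χ : G → ℂ) g =
        (Cfsg.inducedCentralChar H (ξ : H → ℂ) g - Cfsg.centralChar (χ : G → ℂ) g) -
        (Cfsg.inducedCentralChar H (ξ : H → ℂ) g - Cfsg.brauerCentralChar P H (ξ : H → ℂ) g) := by
      ring
    rw [e]
    exact memLocalIdeal_sub hMp (h g) h2

/-- **First main theorem, part (i).** If the block `b` of `N_G(D)` has defect group `D` and
induces `B`, then `B` has defect group `D`. -/
theorem firstMain_i {p : ℕ} [Fact p.Prime] (hM : Cfsg.IsPModular p M) (D : Subgroup G)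
    (hD : IsPGroup p D) (b : Set (Cfsg.IrrCharacter (Subgroup.normalizer (D : Set G))))
    (hb : Cfsg.IsPBlock M b)
    (hDb : Cfsg.IsDefectGroup p M b (D.subgroupOf (Subgroup.normalizer (D : Set G))))
    (B : Set (Cfsg.IrrCharacter G))
    (hind : Cfsg.IsInducedBlock M (Subgroup.normalizer (D : Set G)) b B) :
    Cfsg.IsDefectGroup p M B D := by
  classical
  have hMp := isPrime_of_isPModular hM
  have : Fintype (Subgroup.normalizer (D : Set G)) := Fintype.ofFinite _
  have hB := hind.2.1
  obtain ⟨ξ, hξ⟩ := IsPBlock.nonempty hMp hb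
  obtain ⟨χ, hχ⟩ := IsPBlock.nonempty hMp hB
  obtain ⟨E, hE, hDE⟩ := Cfsg.Agent.S0917.result p M hM (Subgroup.normalizer (D : Set G)) b hb B hB
    hind _ hDb
  rw [Subgroup.map_subgroupOf_eq_of_le Subgroup.le_normalizer] at hDE
  obtain ⟨h0, hh0, P0, hP0⟩ := hDb
  obtain ⟨S, hS⟩ := exists_sylow_eq_of_subgroupOf D hD h0 P0 hP0
  obtain ⟨hc, hF⟩ := fus_of_sylow D hD h0 P0 hP0
  have h1 := brauerCentralChar_of_fus D ξ h0 hc hF
  have h2 : ¬ MemLocalIdeal M (Cfsg.centralChar (χ : G → ℂ) (h0 : G)) := by
    intro hcon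
    apply hh0.2.2 ξ hξ
    rw [← h1]
    have e : Cfsg.brauerCentralChar D (Subgroup.normalizer (D : Set G))
        (ξ : Subgroup.normalizer (D : Set G) → ℂ) (h0 : G) =
        Cfsg.centralChar (χ : G → ℂ) (h0 : G) +
        (Cfsg.inducedCentralChar (Subgroup.normalizer (D : Set G))
          (ξ : Subgroup.normalizer (D : Set G) → ℂ) (h0 : G) -
          Cfsg.centralChar (χ : G → ℂ) (h0 : G)) -
        (Cfsg.inducedCentralChar (Subgroup.normalizer (D : Set G))
          (ξ : Subgroup.normalizer (D : Set G) → ℂ) (h0 : G) -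
          Cfsg.brauerCentralChar D (Subgroup.normalizer (D : Set G))
            (ξ : Subgroup.normalizer (D : Set G) → ℂ) (h0 : G)) := by ring
    rw [e]
    exact memLocalIdeal_sub hMp (memLocalIdeal_add hMp hcon (hind.2.2 ξ hξ χ hχ _))
      (inducedCentralChar_sub_brauer hM D _ hD Subgroup.le_normalizer le_rfl ξ _)
  obtain ⟨gE, hgE, QE, hQE⟩ := hE
  obtain ⟨x, Q', hxQ⟩ := Cfsg.Agent.Lib.Helper77.minmax_b hM B hB gE hgE QE (h0 : G) ⟨χ, hχ, h2⟩
  have hcard : Nat.card E ≤ Nat.card D := by
    calc Nat.card E = Nat.card (E.map (MulAut.conj x).toMonoidHom) :=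
          (Cfsg.Agent.Lib.Helper77.card_map_conj x E).symm
      _ ≤ Nat.card ((Q' : Subgroup (Subgroup.centralizer ({(h0 : G)} : Set G))).map
            (Subgroup.centralizer ({(h0 : G)} : Set G)).subtype) :=
          Subgroup.card_le_of_le (by rw [hQE]; exact hxQ)
      _ = Nat.card ((S : Subgroup (Subgroup.centralizer ({(h0 : G)} : Set G))).map
            (Subgroup.centralizer ({(h0 : G)} : Set G)).subtype) :=
          Cfsg.Agent.Lib.Helper77.card_sylow_map_eq p (h0 : G) Q' S
      _ = Nat.card D := by rw [← hS]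
  have hDEeq : D = E := Subgroup.eq_of_le_of_card_ge hDE hcard
  rw [hDEeq]
  exact ⟨gE, hgE, QE, hQE⟩

open scoped Classical in
/-- the lift to `G` of the idempotent of a block of the normalizer of `D` -/
noncomputable def liftIdem (D : Subgroup G)
    (b : Set (Cfsg.IrrCharacter (Subgroup.normalizer (D : Set G)))) (g : G) : ℂ :=
  if h : ∃ l : Subgroup.normalizer (D : Set G),
      ((l : G) ∈ Subgroup.centralizer (D : Set G) ∧ Fus D l) ∧ IsConj g (l : G) then
    Cfsg.blockCoeff b (Classical.choose h) else 0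

lemma liftIdem_eq (D : Subgroup G)
    (b : Set (Cfsg.IrrCharacter (Subgroup.normalizer (D : Set G)))) {g : G}
    (l : Subgroup.normalizer (D : Set G))
    (hgood : (l : G) ∈ Subgroup.centralizer (D : Set G) ∧ Fus D l) (hconj : IsConj g (l : G)) :
    liftIdem D b g = Cfsg.blockCoeff b l := by
  classical
  have h : ∃ l : Subgroup.normalizer (D : Set G),
      ((l : G) ∈ Subgroup.centralizer (D : Set G) ∧ Fus D l) ∧ IsConj g (l : G) :=
    ⟨l, hgood, hconj⟩
  unfold liftIdem
  rw [dif_pos h]
  have hs := Classical.choose_spec h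
  have h1 : IsConj l (Classical.choose h) := hgood.2 _ (hconj.symm.trans hs.2) hs.1.1
  obtain ⟨n, hn⟩ := isConj_iff.mp h1
  rw [← hn, Cfsg.Agent.Lib.Helper77.blockCoeff_conj]

lemma liftIdem_eq_zero (D : Subgroup G)
    (b : Set (Cfsg.IrrCharacter (Subgroup.normalizer (D : Set G)))) {g : G}
    (h : ¬ ∃ l : Subgroup.normalizer (D : Set G),
      ((l : G) ∈ Subgroup.centralizer (D : Set G) ∧ Fus D l) ∧ IsConj g (l : G)) :
    liftIdem D b g = 0 := by
  classical
  unfold liftIdem
  rw [dif_neg h]

lemma isRClass_liftIdem (hM : M.IsPrime) (D : Subgroup G)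
    (b : Set (Cfsg.IrrCharacter (Subgroup.normalizer (D : Set G)))) (hb : Cfsg.IsPBlock M b) :
    IsRClass M (liftIdem D b) := by
  classical
  have : Fintype (Subgroup.normalizer (D : Set G)) := Fintype.ofFinite _
  refine ⟨?_, ?_⟩
  · intro g x
    have hc : IsConj g (x * g * x⁻¹) := isConj_iff.mpr ⟨x, rfl⟩
    by_cases h : ∃ l : Subgroup.normalizer (D : Set G),
        ((l : G) ∈ Subgroup.centralizer (D : Set G) ∧ Fus D l) ∧ IsConj g (l : G)
    · obtain ⟨l, hgood, hconj⟩ := h
      rw [liftIdem_eq D b l hgood hconj, liftIdem_eq D b l hgood (hc.symm.trans hconj)]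
    · have h' : ¬ ∃ l : Subgroup.normalizer (D : Set G),
          ((l : G) ∈ Subgroup.centralizer (D : Set G) ∧ Fus D l) ∧
            IsConj (x * g * x⁻¹) (l : G) := by
        rintro ⟨l, hgood, hconj⟩
        exact h ⟨l, hgood, hc.trans hconj⟩
      rw [liftIdem_eq_zero D b h, liftIdem_eq_zero D b h']
  · intro g
    by_cases h : ∃ l : Subgroup.normalizer (D : Set G),
        ((l : G) ∈ Subgroup.centralizer (D : Set G) ∧ Fus D l) ∧ IsConj g (l : G)
    · obtain ⟨l, hgood, hconj⟩ := h
      rw [liftIdem_eq D b l hgood hconj]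
      exact (isRClass_blockCoeff hM hb).2 l
    · rw [liftIdem_eq_zero D b h]
      exact memLocalRing_zero hM

/-- the truncation of the lifted idempotent is the idempotent, modulo the local ideal -/
theorem brRes_liftIdem_sub {p : ℕ} [Fact p.Prime] (hM : Cfsg.IsPModular p M) (D : Subgroup G)
    (hD : IsPGroup p D) (b : Set (Cfsg.IrrCharacter (Subgroup.normalizer (D : Set G))))
    (hb : Cfsg.IsPBlock M b)
    (hDb : Cfsg.IsDefectGroup p M b (D.subgroupOf (Subgroup.normalizer (D : Set G))))
    (c : Subgroup.normalizer (D : Set G)) :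
    MemLocalIdeal M (brRes D (Subgroup.normalizer (D : Set G)) (liftIdem D b) c -
      Cfsg.blockCoeff b c) := by
  classical
  have hMp := isPrime_of_isPModular hM
  have : Fintype (Subgroup.normalizer (D : Set G)) := Fintype.ofFinite _
  have hDN : D ≤ Subgroup.normalizer (D : Set G) := Subgroup.le_normalizer
  have hnorm : (D.subgroupOf (Subgroup.normalizer (D : Set G))).Normal :=
    (Subgroup.normal_subgroupOf_iff_le_normalizer hDN).mpr le_rfl
  by_cases hc : (c : G) ∈ Subgroup.centralizer (D : Set G)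
  · have e1 : brRes D (Subgroup.normalizer (D : Set G)) (liftIdem D b) c = liftIdem D b (c : G) := by
      unfold brRes; rw [if_pos hc]
    by_cases h : ∃ l : Subgroup.normalizer (D : Set G),
        ((l : G) ∈ Subgroup.centralizer (D : Set G) ∧ Fus D l) ∧ IsConj (c : G) (l : G)
    · obtain ⟨l, hgood, hconj⟩ := h
      rw [e1, liftIdem_eq D b l hgood hconj]
      have h1 : IsConj l c := hgood.2 c hconj.symm hc
      obtain ⟨n, hn⟩ := isConj_iff.mp h1
      rw [← hn, Cfsg.Agent.Lib.Helper77.blockCoeff_conj, sub_self]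
      exact memLocalIdeal_zero hMp
    · rw [e1, liftIdem_eq_zero D b h, zero_sub]
      apply memLocalIdeal_neg
      by_contra hcon
      apply h
      refine ⟨c, ⟨hc, ?_⟩, IsConj.refl _⟩
      obtain ⟨h1, hh1, P1, hP1⟩ := hDb
      obtain ⟨x, Q, hQ⟩ := Cfsg.Agent.Lib.Helper77.minmax_a hM b hb h1 hh1 P1 c hcon
      rw [← hP1] at hQ
      have hmap : (D.subgroupOf (Subgroup.normalizer (D : Set G))).map
          (MulAut.conj x).toMonoidHom = D.subgroupOf (Subgroup.normalizer (D : Set G)) := by
        apply le_antisymm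
        · rintro _ ⟨d, hd, rfl⟩
          exact hnorm.conj_mem d hd x
        · intro d hd
          refine ⟨x⁻¹ * d * x, ?_, ?_⟩
          · have := hnorm.conj_mem d hd x⁻¹
            rwa [inv_inv] at this
          · show x * (x⁻¹ * d * x) * x⁻¹ = d
            group
      rw [hmap] at hQ
      have hDle : ∀ d ∈ D.subgroupOf (Subgroup.normalizer (D : Set G)),
          d ∈ Subgroup.centralizer ({c} : Set (Subgroup.normalizer (D : Set G))) := by
        intro d hd
        rw [Subgroup.mem_centralizer_iff]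
        intro y hy
        rw [Set.mem_singleton_iff] at hy
        subst hy
        apply Subtype.ext
        have := Subgroup.mem_centralizer_iff.mp hc (d : G) (Subgroup.mem_subgroupOf.mp hd)
        exact this.symm
      set Q2 : Subgroup (Subgroup.centralizer ({c} : Set (Subgroup.normalizer (D : Set G)))) :=
        (D.subgroupOf (Subgroup.normalizer (D : Set G))).subgroupOf
          (Subgroup.centralizer ({c} : Set (Subgroup.normalizer (D : Set G)))) with hQ2def
      have hQ2p : IsPGroup p Q2 := (hD.comap_subtype).comap_subtype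
      have hle : (Q : Subgroup (Subgroup.centralizer ({c} : Set (Subgroup.normalizer (D : Set G)))))
          ≤ Q2 := by
        intro y hy
        rw [hQ2def, Subgroup.mem_subgroupOf]
        exact hQ ⟨y, hy, rfl⟩
      have hQ2 := Q.is_maximal' hQ2p hle
      have hDQ : D.subgroupOf (Subgroup.normalizer (D : Set G)) =
          (Q : Subgroup (Subgroup.centralizer ({c} : Set (Subgroup.normalizer (D : Set G))))).map
            (Subgroup.centralizer ({c} : Set (Subgroup.normalizer (D : Set G)))).subtype := by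
        apply le_antisymm
        · intro d hd
          refine ⟨⟨d, hDle d hd⟩, ?_, rfl⟩
          rw [SetLike.mem_coe, ← hQ2, hQ2def, Subgroup.mem_subgroupOf]
          exact hd
        · exact hQ
      exact (fus_of_sylow D hD c Q hDQ).2
  · have e1 : brRes D (Subgroup.normalizer (D : Set G)) (liftIdem D b) c = 0 := by
      unfold brRes; rw [if_neg hc]
    have e2 : Cfsg.blockCoeff b c = 0 := by
      apply Cfsg.Agent.Lib.Helper77.blockCoeff_eq_zero_of_not_mem_centralizer hM
        (D.subgroupOf (Subgroup.normalizer (D : Set G))) hD.comap_subtype b hb c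
      intro hcon
      apply hc
      rw [Subgroup.mem_centralizer_iff] at hcon ⊢
      intro u hu
      have := hcon ⟨u, hDN hu⟩ (Subgroup.mem_subgroupOf.mpr hu)
      exact congrArg Subtype.val this
    rw [e1, e2, sub_self]
    exact memLocalIdeal_zero hMp

/-- **First main theorem, uniqueness.** Two blocks of `N_G(D)` inducing the same block of `G`,
one of them with defect group `D`, are equal. -/
theorem firstMain_unique {p : ℕ} [Fact p.Prime] (hM : Cfsg.IsPModular p M) (D : Subgroup G)
    (hD : IsPGroup p D) (B : Set (Cfsg.IrrCharacter G)) (hB : Cfsg.IsPBlock M B)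
    (b1 b2 : Set (Cfsg.IrrCharacter (Subgroup.normalizer (D : Set G))))
    (hb1 : Cfsg.IsPBlock M b1)
    (hD1 : Cfsg.IsDefectGroup p M b1 (D.subgroupOf (Subgroup.normalizer (D : Set G))))
    (hind1 : Cfsg.IsInducedBlock M (Subgroup.normalizer (D : Set G)) b1 B)
    (hind2 : Cfsg.IsInducedBlock M (Subgroup.normalizer (D : Set G)) b2 B) : b2 = b1 := by
  classical
  have hMp := isPrime_of_isPModular hM
  have : Fintype (Subgroup.normalizer (D : Set G)) := Fintype.ofFinite _
  have hb2 := hind2.1
  obtain ⟨ξ1, hξ1⟩ := IsPBlock.nonempty hMp hb1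
  obtain ⟨ξ2, hξ2⟩ := IsPBlock.nonempty hMp hb2
  obtain ⟨χ, hχ⟩ := IsPBlock.nonempty hMp hB
  have hα : IsRClass M (liftIdem D b1) := isRClass_liftIdem hMp D b1 hb1
  have k1 := omega_brRes_sub hM D (Subgroup.normalizer (D : Set G)) hD Subgroup.le_normalizer
    le_rfl ξ1 χ (hind1.2.2 ξ1 hξ1 χ hχ) hα
  have k2 := omega_brRes_sub hM D (Subgroup.normalizer (D : Set G)) hD Subgroup.le_normalizer
    le_rfl ξ2 χ (hind2.2.2 ξ2 hξ2 χ hχ) hα
  have hcl : IsRClass M (brRes D (Subgroup.normalizer (D : Set G)) (liftIdem D b1) -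
      Cfsg.blockCoeff b1) :=
    isRClass_sub hMp (isRClass_brRes hMp le_rfl hα) (isRClass_blockCoeff hMp hb1)
  have m : ∀ ξ : Cfsg.IrrCharacter (Subgroup.normalizer (D : Set G)), MemLocalIdeal M
      (omega (ξ : Subgroup.normalizer (D : Set G) → ℂ)
        (brRes D (Subgroup.normalizer (D : Set G)) (liftIdem D b1)) -
        omega (ξ : Subgroup.normalizer (D : Set G) → ℂ) (Cfsg.blockCoeff b1)) := by
    intro ξ
    rw [← omega_sub]
    exact memLocalIdeal_omega_of_forall hMp ξ hcl.1
      (fun c => brRes_liftIdem_sub hM D hD b1 hb1 hD1 c)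
  have m1 := m ξ1
  have m2 := m ξ2
  rw [omega_blockCoeff hMp hb1 ξ1, if_pos hξ1] at m1
  by_contra hne
  have hξ2' : ξ2 ∉ b1 := by
    intro h
    apply hne
    rw [IsPBlock.eq_blockOf hMp hb2 hξ2, IsPBlock.eq_blockOf hMp hb1 h]
  rw [omega_blockCoeff hMp hb1 ξ2, if_neg hξ2', sub_zero] at m2
  apply not_memLocalIdeal_one hMp
  have e : (1 : ℂ) =
      omega (ξ2 : Subgroup.normalizer (D : Set G) → ℂ)
        (brRes D (Subgroup.normalizer (D : Set G)) (liftIdem D b1)) -
      (omega (ξ2 : Subgroup.normalizer (D : Set G) → ℂ)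
        (brRes D (Subgroup.normalizer (D : Set G)) (liftIdem D b1)) -
        omega (χ : G → ℂ) (liftIdem D b1)) +
      (omega (ξ1 : Subgroup.normalizer (D : Set G) → ℂ)
        (brRes D (Subgroup.normalizer (D : Set G)) (liftIdem D b1)) -
        omega (χ : G → ℂ) (liftIdem D b1)) -
      (omega (ξ1 : Subgroup.normalizer (D : Set G) → ℂ)
        (brRes D (Subgroup.normalizer (D : Set G)) (liftIdem D b1)) - 1) := by ring
  rw [e]
  exact memLocalIdeal_sub hMp (memLocalIdeal_add hMp (memLocalIdeal_sub hMp m2 k2) k1) m1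

end

end Cfsg.Agent.Lib.Helper16
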