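import Mathlib
import Cfsg.Prelude.Def_Blocks
import Cfsg.Agent.Lib.Helper16.Cover
import Cfsg.Agent.Lib.Helper16.Induced
import Cfsg.Agent.Lib.Helper77.MinMax
import Cfsg.Agent.Lib.Helper77.Degree
import Cfsg.Agent.Lib.Helper76.BlockCount

/-!
# Fong's theorem on blocks covering an invariant block of a normal subgroup
-/

set_option autoImplicit false

namespace Cfsg.Agent.Lib.Helper16

open Cfsg
open scoped ComplexConjugate

section Aut

variable {N : Type*} [Group N]

/-- the centralizer of the image of an element under an automorphism -/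
theorem centralizer_map_equiv (e : N ≃* N) (y : N) :
    Subgroup.centralizer ({e y} : Set N) =
      (Subgroup.centralizer ({y} : Set N)).map (e : N →* N) := by
  ext x
  rw [Subgroup.mem_centralizer_iff, Subgroup.mem_map]
  constructor
  · intro h
    refine ⟨e.symm x, ?_, by simp⟩
    rw [Subgroup.mem_centralizer_iff]
    intro z hz
    rw [Set.mem_singleton_iff] at hz
    rw [hz]
    have h1 := h (e y) (Set.mem_singleton _)
    apply e.injective
    rw [map_mul, map_mul, e.apply_symm_apply]
    exact h1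
  · rintro ⟨u, hu, rfl⟩ z hz
    rw [Set.mem_singleton_iff] at hz
    rw [hz]
    have h1 := (Subgroup.mem_centralizer_iff.mp hu) y (Set.mem_singleton _)
    show e y * e u = e u * e y
    rw [← map_mul, ← map_mul, h1]

theorem index_centralizer_equiv [Finite N] (e : N ≃* N) (y : N) :
    (Subgroup.centralizer ({e y} : Set N)).index = (Subgroup.centralizer ({y} : Set N)).index := by
  rw [centralizer_map_equiv, Subgroup.index_map_equiv]

end Aut

section

variable {G : Type*} [Group G] [Fintype G] {M : Ideal Cfsg.AlgInt} (N : Subgroup G)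
  [hN : N.Normal] [Fintype N]

/-- invariance of a block of `N` in terms of `conjIrr` -/
lemma conjIrr_mem_of_invariant (b : Set (Cfsg.IrrCharacter N))
    (hinv : ∀ g : G, ∀ θ ∈ b, ∀ θ' : Cfsg.IrrCharacter N,
      (∀ n : N, (θ' : N → ℂ) n = (θ : N → ℂ) ⟨g * n * g⁻¹, hN.conj_mem n n.2 g⟩) → θ' ∈ b)
    (θ : Cfsg.IrrCharacter N) (hθ : θ ∈ b) (g : G) : conjIrr N θ g ∈ b := by
  apply hinv g⁻¹ θ hθ
  intro n
  have h : g⁻¹ * (n : G) * g ∈ N := by simpa using hN.conj_mem n n.2 g⁻¹
  rw [conjIrr_apply N θ g n h]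
  exact congrArg (θ : N → ℂ) (Subtype.ext (by simp))

lemma mem_blockOrbit_of_invariant (b : Set (Cfsg.IrrCharacter N))
    (hinv : ∀ θ ∈ b, ∀ g : G, conjIrr N θ g ∈ b) (θ : Cfsg.IrrCharacter N) :
    θ ∈ blockOrbit (G := G) N b ↔ θ ∈ b := by
  rw [mem_blockOrbit]
  constructor
  · rintro ⟨g, hg⟩
    have := hinv (conjIrr N θ g) hg g⁻¹
    rwa [← conjIrr_mul, inv_mul_cancel, conjIrr_one] at this
  · intro h
    exact ⟨1, by rw [conjIrr_one]; exact h⟩

lemma normalIdem_blockOrbit_apply (b : Set (Cfsg.IrrCharacter N))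
    (hinv : ∀ θ ∈ b, ∀ g : G, conjIrr N θ g ∈ b) (n : N) :
    normalIdem N (blockOrbit (G := G) N b) (n : G) = Cfsg.blockCoeff b n := by
  classical
  have : Fintype (Cfsg.IrrCharacter N) := Fintype.ofFinite _
  unfold normalIdem Cfsg.extendByZero
  rw [Subtype.val_injective.extend_apply]
  unfold Cfsg.blockCoeff
  rw [finsum_mem_eq_sum_ite, Finset.sum_apply, Finset.mul_sum]
  have e : blockOrbit (G := G) N b = Finset.univ.filter
      (fun θ : Cfsg.IrrCharacter N => θ ∈ b) := by
    ext θ
    rw [mem_blockOrbit_of_invariant N b hinv, Finset.mem_filter]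
    simp
  rw [e, Finset.sum_filter]
  apply Finset.sum_congr rfl
  intro θ _
  unfold idem
  split_ifs
  · ring
  · ring

lemma normalIdem_apply_of_not_mem (S : Finset (Cfsg.IrrCharacter N)) {g : G} (hg : g ∉ N) :
    normalIdem N S g = 0 := by
  unfold normalIdem Cfsg.extendByZero
  rw [Function.extend_apply']
  · rfl
  · rintro ⟨n, hn⟩
    exact hg (hn ▸ n.2)

/-- the central character of a conjugate element of `N` -/
lemma centralChar_conj_normal (θ : Cfsg.IrrCharacter N) (g : G) (y : N) :
    Cfsg.centralChar (θ : N → ℂ) (MulAut.conjNormal g y) =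
      Cfsg.centralChar (conjIrr N θ g⁻¹ : N → ℂ) y := by
  unfold Cfsg.centralChar
  have h1 : (Subgroup.centralizer ({(MulAut.conjNormal g y : N)} : Set N)).index =
      (Subgroup.centralizer ({y} : Set N)).index :=
    index_centralizer_equiv (MulAut.conjNormal g) y
  have h2 : g⁻¹⁻¹ * (y : G) * g⁻¹ ∈ N := by
    rw [inv_inv]
    exact hN.conj_mem y y.2 g
  have h3 : (conjIrr N θ g⁻¹ : N → ℂ) y = (θ : N → ℂ) (MulAut.conjNormal g y) := by
    rw [conjIrr_apply N θ g⁻¹ y h2]
    exact congrArg (θ : N → ℂ) (Subtype.ext (by simp [MulAut.conjNormal_apply]))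
  rw [h1, h3, conjIrr_apply_one]

/-- the `N`-centralizer of `y ∈ N` and the intersection of `N` with the `G`-centralizer -/
lemma card_subgroupOf_centralizer (y : N) :
    Nat.card (N.subgroupOf (Subgroup.centralizer ({(y : G)} : Set G))) =
      Nat.card (Subgroup.centralizer ({y} : Set N)) := by
  apply Nat.card_congr
  refine ⟨fun x => ⟨⟨((x : Subgroup.centralizer ({(y : G)} : Set G)) : G),
      Subgroup.mem_subgroupOf.mp x.2⟩, ?_⟩,
    fun n => ⟨⟨((n : N) : G), ?_⟩, ?_⟩, ?_, ?_⟩
  · rw [Subgroup.mem_centralizer_iff]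
    intro z hz
    rw [Set.mem_singleton_iff] at hz
    rw [hz]
    apply Subtype.ext
    have h := (Subgroup.mem_centralizer_iff.mp (x : Subgroup.centralizer ({(y : G)} : Set G)).2)
      (y : G) (Set.mem_singleton _)
    exact h
  · rw [Subgroup.mem_centralizer_iff]
    intro z hz
    rw [Set.mem_singleton_iff] at hz
    rw [hz]
    have h := (Subgroup.mem_centralizer_iff.mp n.2) y (Set.mem_singleton _)
    exact congrArg Subtype.val h
  · rw [Subgroup.mem_subgroupOf]
    exact (n : N).2
  · intro x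
    rfl
  · intro n
    rfl

lemma exists_index_factor (y : N) : ∃ r c : ℕ, N.index = r * c ∧ 0 < c ∧ 0 < r ∧
    (Subgroup.centralizer ({(y : G)} : Set G)).index =
      r * (Subgroup.centralizer ({y} : Set N)).index ∧
    Nat.card (Subgroup.centralizer ({(y : G)} : Set G)) =
      c * Nat.card (Subgroup.centralizer ({y} : Set N)) := by
  set C : Subgroup G := Subgroup.centralizer ({(y : G)} : Set G) with hC
  set CN : Subgroup N := Subgroup.centralizer ({y} : Set N) with hCN
  set c : ℕ := N.relIndex C with hc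
  have hcdvd : c ∣ N.index := Subgroup.relIndex_dvd_index_of_normal N C
  obtain ⟨r, hr⟩ := hcdvd
  have h1 : C.index * Nat.card C = Nat.card G := Subgroup.index_mul_card C
  have h2 : N.index * Nat.card N = Nat.card G := Subgroup.index_mul_card N
  have h3 : CN.index * Nat.card CN = Nat.card N := Subgroup.index_mul_card CN
  have h4 : c * Nat.card CN = Nat.card C := by
    rw [hc, ← card_subgroupOf_centralizer N y]
    exact Subgroup.index_mul_card (N.subgroupOf C)
  have hCN0 : 0 < Nat.card CN := Nat.card_pos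
  have hN0 : N.index ≠ 0 := Subgroup.index_ne_zero_of_finite
  have hc0 : 0 < c := by
    rcases Nat.eq_zero_or_pos c with h | h
    · rw [h, zero_mul] at hr
      exact absurd hr hN0
    · exact h
  have hr0 : 0 < r := by
    rcases Nat.eq_zero_or_pos r with h | h
    · rw [h, mul_zero] at hr
      exact absurd hr hN0
    · exact h
  refine ⟨r, c, by rw [hr, mul_comm], hc0, hr0, ?_, h4.symm⟩
  have h5 : C.index * (c * Nat.card CN) = (r * CN.index) * (c * Nat.card CN) := by
    calc C.index * (c * Nat.card CN) = C.index * Nat.card C := by rw [h4]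
      _ = Nat.card G := h1
      _ = N.index * Nat.card N := h2.symm
      _ = (c * r) * (CN.index * Nat.card CN) := by rw [hr, h3]
      _ = (r * CN.index) * (c * Nat.card CN) := by ring
  exact Nat.eq_of_mul_eq_mul_right (Nat.mul_pos hc0 hCN0) h5

/-- the central character of a character of `G` at an element of `N`, in terms of a constituent
lying in an invariant block -/
theorem centralChar_cover_congr (hM : M.IsPrime) (b : Set (Cfsg.IrrCharacter N))
    (hb : Cfsg.IsPBlock M b) (hinv : ∀ θ ∈ b, ∀ g : G, conjIrr N θ g ∈ b)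
    (χ : Cfsg.IrrCharacter G) (θ : Cfsg.IrrCharacter N) (hθ : θ ∈ b)
    (hcon : Cfsg.classInner (fun n : N => (χ : G → ℂ) n) (θ : N → ℂ) ≠ 0) (y : N) (r : ℕ)
    (hr : (Subgroup.centralizer ({(y : G)} : Set G)).index =
      r * (Subgroup.centralizer ({y} : Set N)).index) :
    MemLocalIdeal M (Cfsg.centralChar (χ : G → ℂ) (y : G) -
      (r : ℂ) * Cfsg.centralChar (θ : N → ℂ) y) := by
  classical
  set ℓ : ℕ := (Subgroup.centralizer ({y} : Set N)).index with hℓ
  have hℓ0 : (ℓ : ℂ) ≠ 0 := by
    have : ℓ ≠ 0 := Subgroup.index_ne_zero_of_finite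
    exact_mod_cast this
  have hθ1 : (θ : N → ℂ) 1 ≠ 0 := irr_one_ne_zero θ
  set K : Finset N := Finset.univ.filter (fun h : N => IsConj (y : G) (h : G)) with hK
  have hsum : Cfsg.inducedCentralChar N (θ : N → ℂ) (y : G) =
      ∑ h ∈ K, (θ : N → ℂ) h / (θ : N → ℂ) 1 := by
    rw [inducedCentralChar_eq_sum]
    apply Finset.sum_congr _ (fun _ _ => rfl)
    ext h
    simp only [hK, Finset.mem_filter, Finset.mem_univ, true_and]
  rw [centralChar_eq_inducedCentralChar N hcon y, hsum]
  have hA : ∀ h ∈ K, (Subgroup.centralizer ({h} : Set N)).index = ℓ ∧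
      MemLocalIdeal M (Cfsg.centralChar (θ : N → ℂ) h - Cfsg.centralChar (θ : N → ℂ) y) := by
    intro h hh
    rw [hK, Finset.mem_filter] at hh
    obtain ⟨g, hg⟩ := isConj_iff.mp hh.2
    have hh' : h = MulAut.conjNormal g y :=
      Subtype.ext (by rw [← hg]; simp [MulAut.conjNormal_apply])
    constructor
    · rw [hh']
      exact index_centralizer_equiv (MulAut.conjNormal g) y
    · rw [hh', centralChar_conj_normal]
      have hs : Cfsg.SameBlock M (conjIrr N θ g⁻¹ : N → ℂ) (θ : N → ℂ) :=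
        IsPBlock.sameBlock hM hb (hinv θ hθ g⁻¹) hθ
      exact hs y
  have hcardK : (K.card : ℂ) = (r : ℂ) * (ℓ : ℂ) := by
    have h1 : K.card = (Subgroup.centralizer ({(y : G)} : Set G)).index := by
      rw [← card_isConj (y : G)]
      apply Finset.card_bij (fun (h : N) _ => (h : G))
      · intro h hh
        rw [hK, Finset.mem_filter] at hh
        rw [Finset.mem_filter]
        exact ⟨Finset.mem_univ _, hh.2⟩
      · intro h₁ _ h₂ _ e
        exact Subtype.ext e
      · intro g hg
        rw [Finset.mem_filter] at hg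
        obtain ⟨c, hc⟩ := isConj_iff.mp hg.2
        have hgN : g ∈ N := by
          rw [← hc]
          exact hN.conj_mem y y.2 c
        exact ⟨⟨g, hgN⟩, by rw [hK, Finset.mem_filter]; exact ⟨Finset.mem_univ _, hg.2⟩, rfl⟩
    rw [h1, hr]
    push_cast
    ring
  have hsplit : ∑ h ∈ K, (θ : N → ℂ) h / (θ : N → ℂ) 1 =
      (r : ℂ) * Cfsg.centralChar (θ : N → ℂ) y +
        ∑ h ∈ K, (Cfsg.centralChar (θ : N → ℂ) h - Cfsg.centralChar (θ : N → ℂ) y) / (ℓ : ℂ) := by
    have h1 : ∀ h ∈ K, (θ : N → ℂ) h / (θ : N → ℂ) 1 =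
        Cfsg.centralChar (θ : N → ℂ) y / (ℓ : ℂ) +
          (Cfsg.centralChar (θ : N → ℂ) h - Cfsg.centralChar (θ : N → ℂ) y) / (ℓ : ℂ) := by
      intro h hh
      have h2 : Cfsg.centralChar (θ : N → ℂ) h = (ℓ : ℂ) * (θ : N → ℂ) h / (θ : N → ℂ) 1 := by
        unfold Cfsg.centralChar
        rw [(hA h hh).1]
      rw [h2]
      field_simp
      ring
    rw [Finset.sum_congr rfl h1, Finset.sum_add_distrib, Finset.sum_const, nsmul_eq_mul, hcardK]
    congr 1
    field_simp
  rw [hsplit, add_sub_cancel_left]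
  set φ : N → ℂ := fun h => if IsConj (y : G) (h : G) then
    (Cfsg.centralChar (θ : N → ℂ) h - Cfsg.centralChar (θ : N → ℂ) y) / (ℓ : ℂ) else 0 with hφ
  have hφsum : ∑ h ∈ K, (Cfsg.centralChar (θ : N → ℂ) h - Cfsg.centralChar (θ : N → ℂ) y) /
      (ℓ : ℂ) = ∑ h ∈ (Finset.univ : Finset N), φ h := by
    rw [hK, Finset.sum_filter]
  rw [hφsum]
  apply sum_class_invariant_mem (MemLocalIdeal M) (memLocalIdeal_zero hM)
    (fun a b ha hb => memLocalIdeal_add hM ha hb) φ
  · intro x h
    simp only [hφ]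
    have e1 : IsConj (y : G) ((x * h * x⁻¹ : N) : G) ↔ IsConj (y : G) (h : G) := by
      have : ((x * h * x⁻¹ : N) : G) = (x : G) * (h : G) * (x : G)⁻¹ := by simp
      rw [this]
      exact Cfsg.Agent.Lib.Helper77.isConj_conj_iff (y : G) (x : G) (h : G)
    have e2 : Cfsg.centralChar (θ : N → ℂ) (x * h * x⁻¹) = Cfsg.centralChar (θ : N → ℂ) h :=
      Cfsg.Agent.Lib.Helper77.centralChar_conj θ x h
    simp only [e1, e2]
  · intro h
    simp only [hφ]
    split_ifs with hc
    · have h1 := hA h (by rw [hK, Finset.mem_filter]; exact ⟨Finset.mem_univ _, hc⟩)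
      rw [h1.1]
      have e : (ℓ : ℂ) * ((Cfsg.centralChar (θ : N → ℂ) h - Cfsg.centralChar (θ : N → ℂ) y) /
          (ℓ : ℂ)) = Cfsg.centralChar (θ : N → ℂ) h - Cfsg.centralChar (θ : N → ℂ) y := by
        field_simp
      rw [e]
      exact h1.2
    · rw [mul_zero]
      exact memLocalIdeal_zero hM
  · intro x h _
    exact Finset.mem_univ _

/-- the key step: an element of `N` at which the block idempotent of an invariant block `b` and
the central character of a covering block are both units is a defect class of `b`, and the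
`p`-part of its centralizer in `G` is as large as possible -/
theorem fong_key {p : ℕ} [Fact p.Prime] (hM : Cfsg.IsPModular p M)
    (b : Set (Cfsg.IrrCharacter N)) (hb : Cfsg.IsPBlock M b)
    (hinv : ∀ θ ∈ b, ∀ g : G, conjIrr N θ g ∈ b)
    (χ₀ : Cfsg.IrrCharacter G) (θ₀ : Cfsg.IrrCharacter N) (hθ₀ : θ₀ ∈ b)
    (hcon : Cfsg.classInner (fun n : N => (χ₀ : G → ℂ) n) (θ₀ : N → ℂ) ≠ 0) (y : N)
    (hy1 : ¬ MemLocalIdeal M (Cfsg.blockCoeff b y))
    (hy2 : ¬ MemLocalIdeal M (Cfsg.centralChar (χ₀ : G → ℂ) (y : G))) :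
    Cfsg.IsDefectClass M b y ∧
      (Nat.card (Subgroup.centralizer ({(y : G)} : Set G))).factorization p =
        Cfsg.blockDefect p b + N.index.factorization p ∧
      (Nat.card (Subgroup.centralizer ({y} : Set N))).factorization p = Cfsg.blockDefect p b := by
  classical
  have hMp := isPrime_of_isPModular hM
  have hp : p.Prime := Fact.out
  obtain ⟨r, c, hrc, hc0, hr0, hidx, hcard⟩ := exists_index_factor N y
  have hcong := centralChar_cover_congr N hMp b hb hinv χ₀ θ₀ hθ₀ hcon y r hidx
  have hR1 : MemLocalRing M (Cfsg.centralChar (θ₀ : N → ℂ) y) := memLocalRing_centralChar hMp θ₀ y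
  have hprod : ¬ MemLocalIdeal M ((r : ℂ) * Cfsg.centralChar (θ₀ : N → ℂ) y) := by
    intro h
    apply hy2
    have h1 := memLocalIdeal_add hMp hcong h
    rwa [sub_add_cancel] at h1
  have hr : ¬ p ∣ r := by
    intro h
    apply hprod
    exact memLocalIdeal_mul_right hMp ((memLocalIdeal_natCast_iff hM r).mpr h) hR1
  have hθ₀y : ¬ MemLocalIdeal M (Cfsg.centralChar (θ₀ : N → ℂ) y) := fun h =>
    hprod (memLocalIdeal_mul_left hMp (memLocalRing_natCast hMp r) h)
  have hdef : Cfsg.IsDefectClass M b y := by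
    refine ⟨(isRClass_blockCoeff hMp hb).2 y, hy1, ?_⟩
    intro θ hθ h
    apply hθ₀y
    have hs : Cfsg.SameBlock M (θ₀ : N → ℂ) (θ : N → ℂ) := IsPBlock.sameBlock hMp hb hθ₀ hθ
    have h1 := memLocalIdeal_add hMp (hs y) h
    rwa [sub_add_cancel] at h1
  obtain ⟨S⟩ : Nonempty (Sylow p (Subgroup.centralizer ({y} : Set N))) := inferInstance
  have hDG : Cfsg.IsDefectGroup p M b ((S : Subgroup (Subgroup.centralizer ({y} : Set N))).map
      (Subgroup.centralizer ({y} : Set N)).subtype) := ⟨y, hdef, S, rfl⟩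
  have hcardS := Cfsg.Agent.Lib.Helper77.card_isDefectGroup hM b hb _ hDG
  have h1 : Nat.card (S : Subgroup (Subgroup.centralizer ({y} : Set N))) =
      p ^ (Nat.card (Subgroup.centralizer ({y} : Set N))).factorization p :=
    S.card_eq_multiplicity
  have h2 : Nat.card ((S : Subgroup (Subgroup.centralizer ({y} : Set N))).map
      (Subgroup.centralizer ({y} : Set N)).subtype) =
      Nat.card (S : Subgroup (Subgroup.centralizer ({y} : Set N))) :=
    Subgroup.card_map_of_injective (Subgroup.subtype_injective _)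
  have hfac : (Nat.card (Subgroup.centralizer ({y} : Set N))).factorization p =
      Cfsg.blockDefect p b := by
    rw [h2, h1] at hcardS
    exact Nat.pow_right_injective hp.two_le hcardS
  have hCN0 : Nat.card (Subgroup.centralizer ({y} : Set N)) ≠ 0 := Nat.card_pos.ne'
  refine ⟨hdef, ?_, hfac⟩
  rw [hcard, Nat.factorization_mul hc0.ne' hCN0, Finsupp.add_apply, hfac]
  have h3 : N.index.factorization p = c.factorization p := by
    rw [hrc, Nat.factorization_mul hr0.ne' hc0.ne', Finsupp.add_apply,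
      Nat.factorization_eq_zero_of_not_dvd hr, zero_add]
  rw [h3]
  ring

end

section Closed

variable {H : Type*} [Group H] [Fintype H] {M : Ideal Cfsg.AlgInt}

/-- a block-closed sum of character idempotents lies in the local ideal at `g` if all the block
idempotents involved do -/
theorem memLocalIdeal_sum_idem_of_blockClosed (hM : M.IsPrime) (g : H) :
    ∀ (k : ℕ) (S : Finset (Cfsg.IrrCharacter H)), S.card = k →
      (∀ χ ∈ S, ∀ χ' : Cfsg.IrrCharacter H, Cfsg.SameBlock M (χ : H → ℂ) (χ' : H → ℂ) → χ' ∈ S) →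
      (∀ χ ∈ S, MemLocalIdeal M (Cfsg.blockCoeff (Cfsg.blockOf M (χ : H → ℂ)) g)) →
      MemLocalIdeal M ((∑ χ ∈ S, idem (χ : H → ℂ)) g) := by
  classical
  intro k
  induction k using Nat.strong_induction_on with
  | _ k ih =>
    intro S hk hS hJ
    have : Fintype (Cfsg.IrrCharacter H) := Fintype.ofFinite _
    rcases Finset.eq_empty_or_nonempty S with h0 | ⟨θ0, hθ0⟩
    · rw [h0, Finset.sum_empty]
      exact memLocalIdeal_zero hM
    · set S0 : Finset (Cfsg.IrrCharacter H) :=
        S.filter (fun θ => Cfsg.SameBlock M (θ0 : H → ℂ) (θ : H → ℂ)) with hS0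
      have hθ0S0 : θ0 ∈ S0 := by
        rw [hS0, Finset.mem_filter]
        exact ⟨hθ0, mem_blockOf_self hM θ0⟩
      have hsub : S0 ⊆ S := Finset.filter_subset _ _
      have hcard : (S \ S0).card < k := by
        rw [← hk]
        apply Finset.card_lt_card
        refine ⟨Finset.sdiff_subset, ?_⟩
        intro hc
        have := hc hθ0
        rw [Finset.mem_sdiff] at this
        exact this.2 hθ0S0
      have hclosed : ∀ θ ∈ S \ S0, ∀ θ' : Cfsg.IrrCharacter H,
          Cfsg.SameBlock M (θ : H → ℂ) (θ' : H → ℂ) → θ' ∈ S \ S0 := by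
        intro θ hθ θ' hθθ'
        rw [Finset.mem_sdiff] at hθ ⊢
        refine ⟨hS θ hθ.1 θ' hθθ', ?_⟩
        intro hc
        apply hθ.2
        rw [hS0, Finset.mem_filter] at hc ⊢
        exact ⟨hθ.1, sameBlock_trans hM hc.2 (sameBlock_symm hθθ')⟩
      have h1 := ih _ hcard (S \ S0) rfl hclosed
        (fun χ hχ => hJ χ (Finset.mem_sdiff.mp hχ).1)
      have h2 : (∑ θ ∈ S, idem (θ : H → ℂ)) g =
          (∑ θ ∈ S \ S0, idem (θ : H → ℂ)) g + (∑ θ ∈ S0, idem (θ : H → ℂ)) g := by
        rw [← Pi.add_apply, Finset.sum_sdiff hsub]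
      have h3 : (∑ θ ∈ S0, idem (θ : H → ℂ)) g =
          Cfsg.blockCoeff (Cfsg.blockOf M (θ0 : H → ℂ)) g := by
        unfold Cfsg.blockCoeff
        rw [finsum_mem_eq_sum_ite, Finset.sum_apply, Finset.mul_sum]
        have e : S0 = Finset.univ.filter
            (fun θ : Cfsg.IrrCharacter H => θ ∈ Cfsg.blockOf M (θ0 : H → ℂ)) := by
          ext θ
          rw [hS0, Finset.mem_filter, Finset.mem_filter]
          constructor
          · intro h
            exact ⟨Finset.mem_univ _, h.2⟩
          · intro h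
            exact ⟨hS θ0 hθ0 θ h.2, h.2⟩
        rw [e, Finset.sum_filter]
        apply Finset.sum_congr rfl
        intro θ _
        unfold idem
        split_ifs
        · ring
        · ring
      rw [h2, h3]
      exact memLocalIdeal_add hM h1 (hJ θ0 hθ0)

end Closed

section

variable {G : Type*} [Group G] [Fintype G] {M : Ideal Cfsg.AlgInt} (N : Subgroup G)
  [hN : N.Normal] [Fintype N]

/-- a covering block of maximal defect has defect at least the `p`-part of the centralizer of an
element at which the idempotent of `b` is a unit -/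
theorem fong_defect_ge {p : ℕ} [Fact p.Prime] (hM : Cfsg.IsPModular p M)
    (b : Set (Cfsg.IrrCharacter N)) (hb : Cfsg.IsPBlock M b)
    (hinv : ∀ θ ∈ b, ∀ g : G, conjIrr N θ g ∈ b) (B : Set (Cfsg.IrrCharacter G))
    (hmax : ∀ B' : Set (Cfsg.IrrCharacter G), Cfsg.IsPBlock M B' →
      (∃ χ ∈ B', ∃ θ ∈ b, Cfsg.classInner (fun n : N => (χ : G → ℂ) n) (θ : N → ℂ) ≠ 0) →
      Cfsg.blockDefect p B' ≤ Cfsg.blockDefect p B) (y : N)
    (hy1 : ¬ MemLocalIdeal M (Cfsg.blockCoeff b y)) :
    (Nat.card (Subgroup.centralizer ({(y : G)} : Set G))).factorization p ≤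
      Cfsg.blockDefect p B := by
  classical
  by_contra hlt
  push Not at hlt
  have hMp := isPrime_of_isPModular hM
  have : Finite (Cfsg.IrrCharacter G) := Cfsg.Agent.Lib.Helper77.irr_finite G
  have : Fintype (Cfsg.IrrCharacter G) := Fintype.ofFinite _
  set S := blockOrbit (G := G) N b with hSdef
  have hS : ∀ θ ∈ S, ∀ g : G, conjIrr N θ g ∈ S := blockOrbit_stable N b
  set E : G → ℂ := normalIdem N S with hEdef
  have hE : IsRClass M E := isRClass_normalIdem_blockOrbit N hMp hb
  set A : Finset (Cfsg.IrrCharacter G) :=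
    Finset.univ.filter (fun χ : Cfsg.IrrCharacter G => omega (χ : G → ℂ) E = 1) with hA
  have hEval : E (y : G) = (∑ χ ∈ A, idem (χ : G → ℂ)) (y : G) := by
    rw [inversion hE.1 (y : G), Finset.sum_apply, hA, Finset.sum_filter, Finset.mul_sum]
    apply Finset.sum_congr rfl
    intro χ _
    rcases omega_normalIdem_zero_or_one N S hS χ with h | h
    · rw [if_neg (by rw [h]; exact zero_ne_one), h]
      ring
    · rw [if_pos h, h]
      unfold idem
      ring
  have hclosed : ∀ χ ∈ A, ∀ χ' : Cfsg.IrrCharacter G,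
      Cfsg.SameBlock M (χ : G → ℂ) (χ' : G → ℂ) → χ' ∈ A := by
    intro χ hχ χ' hs
    rw [hA, Finset.mem_filter] at hχ ⊢
    refine ⟨Finset.mem_univ _, ?_⟩
    have h1 := memLocalIdeal_omega_sub hMp hs hE
    rcases omega_normalIdem_zero_or_one N S hS χ' with h | h
    · rw [hχ.2, h, sub_zero] at h1
      exact absurd h1 (not_memLocalIdeal_one hMp)
    · exact h
  have hJ : ∀ χ ∈ A, MemLocalIdeal M
      (Cfsg.blockCoeff (Cfsg.blockOf M (χ : G → ℂ)) (y : G)) := by
    intro χ hχ
    rw [hA, Finset.mem_filter] at hχ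
    have hne : omega (χ : G → ℂ) (normalIdem N S) ≠ 0 := by
      rw [← hEdef, hχ.2]
      exact one_ne_zero
    obtain ⟨θ, hθS, hθ⟩ := exists_constituent_of_omega_ne_zero N S (χ : G → ℂ) hne
    have hθb : θ ∈ b := (mem_blockOrbit_of_invariant N b hinv θ).mp hθS
    have hle := hmax (Cfsg.blockOf M (χ : G → ℂ)) (isPBlock_blockOf χ)
      ⟨χ, mem_blockOf_self hMp χ, θ, hθb, hθ⟩
    exact Cfsg.Agent.Lib.Helper76.memLocalIdeal_blockCoeff_of_defect_gt hM _ (isPBlock_blockOf χ)
      (y : G) (lt_of_le_of_lt hle hlt)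
  have h1 := memLocalIdeal_sum_idem_of_blockClosed hMp (y : G) A.card A rfl hclosed hJ
  rw [← hEval, hEdef, normalIdem_blockOrbit_apply N b hinv y] at h1
  exact hy1 h1

end

end Cfsg.Agent.Lib.Helper16
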