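import Mathlib
import Cfsg.Prelude.Def_Blocks
import Cfsg.Agent.Lib.Helper16.CliffordMid
import Cfsg.Agent.Lib.Helper16.IndBlock
import Cfsg.Agent.Lib.Helper16.Cover
import Cfsg.Agent.Lib.Helper77.IrrMap

/-!
# The Fong–Reynolds correspondence

Let `N` be normal in `G`, `b` a block of `N` and `T` its stabilizer in `G`.  Block induction is
a bijection from the blocks of `T` covering `b` to the blocks of `G` covering `b`, and the
characters of the induced block are the characters induced from the block of `T`.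
-/

set_option autoImplicit false
set_option linter.unusedSectionVars false
set_option linter.style.haveILetI false

namespace Cfsg.Agent.Lib.Helper16

open Cfsg
open Cfsg.Agent.Lib.Helper75 (conjChar inertia)
open scoped ComplexConjugate

section
variable {G : Type*} [Group G] [Fintype G] (N : Subgroup G) [hN : N.Normal] [Fintype N]
  (T : Subgroup G) [Fintype T] (hNT : N ≤ T) {M : Ideal Cfsg.AlgInt}

/-- `ψ` (a function on `T`) lies over the set `b` of irreducible characters of `N` -/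
def Over (b : Set (Cfsg.IrrCharacter N)) (ψ : T → ℂ) : Prop :=
  ∃ θ ∈ b, Cfsg.classInner (fun n : N => ψ ⟨(n : G), hNT n.2⟩) (θ : N → ℂ) ≠ 0

/-- the stabilizer hypothesis of the frozen statements, in terms of `conjIrr` -/
lemma stab_iff_of_frozen {b : Set (Cfsg.IrrCharacter N)}
    (hT : ∀ g : G, g ∈ T ↔ ∀ θ ∈ b, ∀ θ' : Cfsg.IrrCharacter N,
      (∀ n : N, (θ' : N → ℂ) n = (θ : N → ℂ) ⟨g * n * g⁻¹, hN.conj_mem n n.2 g⟩) → θ' ∈ b)
    (g : G) : g ∈ T ↔ ∀ θ ∈ b, conjIrr N θ g ∈ b := by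
  constructor
  · intro hg θ hθ
    have hg' : g⁻¹ ∈ T := T.inv_mem hg
    refine (hT g⁻¹).mp hg' θ hθ (conjIrr N θ g) (fun n => ?_)
    have hmem : g⁻¹ * (n : G) * g ∈ N := by
      have := hN.conj_mem n n.2 g⁻¹
      simpa using this
    rw [conjIrr_apply N θ g n hmem]
    exact congrArg (θ : N → ℂ) (Subtype.ext (by simp))
  · intro h
    have hg' : g⁻¹ ∈ T := by
      rw [hT]
      intro θ hθ θ' hθ'
      have : θ' = conjIrr N θ g := by
        apply Subtype.ext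
        funext n
        have hmem : g⁻¹ * (n : G) * g ∈ N := by
          have := hN.conj_mem n n.2 g⁻¹
          simpa using this
        rw [hθ' n, conjIrr_apply N θ g n hmem]
        exact congrArg (θ : N → ℂ) (Subtype.ext (by simp))
      rw [this]
      exact h θ hθ
    have := T.inv_mem hg'
    rwa [inv_inv] at this

lemma stab_mem_of_conj (hM : M.IsPrime) {b : Set (Cfsg.IrrCharacter N)}
    (hb : Cfsg.IsPBlock M b) (hstab : ∀ g : G, g ∈ T ↔ ∀ θ ∈ b, conjIrr N θ g ∈ b)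
    {θ : Cfsg.IrrCharacter N} (hθ : θ ∈ b) {g : G} (hg : conjIrr N θ g ∈ b) : g ∈ T := by
  rw [hstab]
  intro θ₁ hθ₁
  have h1 := sameBlock_conjIrr N hM (IsPBlock.sameBlock hM hb hθ hθ₁) g
  rw [IsPBlock.eq_blockOf hM hb hg]
  exact h1

lemma inertia_le_stab (hM : M.IsPrime) {b : Set (Cfsg.IrrCharacter N)}
    (hb : Cfsg.IsPBlock M b) (hstab : ∀ g : G, g ∈ T ↔ ∀ θ ∈ b, conjIrr N θ g ∈ b)
    {θ : Cfsg.IrrCharacter N} (hθ : θ ∈ b) : inertia N (θ : N → ℂ) ≤ T := by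
  intro g hg
  apply stab_mem_of_conj N T hM hb hstab hθ (g := g)
  have : conjIrr N θ g = θ :=
    Subtype.ext ((Cfsg.Agent.Lib.Helper75.mem_inertia_iff N _ g).mp hg)
  rw [this]
  exact hθ

/-- multiplicities in the restriction of a class function of `T` are `T`-invariant -/
lemma classInner_res_conjChar_le (ψ : T → ℂ) (hψ : Cfsg.IsClassFunction T ψ) (θ : N → ℂ)
    {g : G} (hg : g ∈ T) :
    Cfsg.classInner (fun n : N => ψ ⟨(n : G), hNT n.2⟩) (conjChar N θ g) =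
      Cfsg.classInner (fun n : N => ψ ⟨(n : G), hNT n.2⟩) θ := by
  have h1 : conjChar N (fun n : N => ψ ⟨(n : G), hNT n.2⟩) g =
      fun n : N => ψ ⟨(n : G), hNT n.2⟩ := by
    funext n
    have hmem : g⁻¹ * (n : G) * g ∈ N := by
      have := hN.conj_mem n n.2 g⁻¹
      simpa using this
    rw [Cfsg.Agent.Lib.Helper75.conjChar_val N _ g n hmem]
    have := hψ ⟨(n : G), hNT n.2⟩ (⟨g, hg⟩⁻¹ : T)
    rw [← this]
    congr 1
    apply Subtype.ext
    simp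
  conv_lhs => rw [← h1]
  exact Cfsg.Agent.Lib.Helper75.classInner_conjChar N _ _ g

section Sub
variable [Fintype (N.subgroupOf T)]

/-- the set `b` transported to `N.subgroupOf T` -/
def subBlock (b : Set (Cfsg.IrrCharacter N)) : Set (Cfsg.IrrCharacter (N.subgroupOf T)) :=
  Cfsg.Agent.Lib.Helper77.mapSet (Subgroup.subgroupOfEquivOfLe hNT).symm b

lemma over_iff_sub (b : Set (Cfsg.IrrCharacter N)) (ψ : T → ℂ) :
    (∃ θ' ∈ subBlock N T hNT b, Cfsg.classInner (fun n' : N.subgroupOf T => ψ n')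
      (θ' : N.subgroupOf T → ℂ) ≠ 0) ↔ Over N T hNT b ψ := by
  constructor
  · rintro ⟨θ', ⟨θ, hθ, rfl⟩, h⟩
    refine ⟨θ, hθ, ?_⟩
    rw [← Cfsg.Agent.Lib.Helper75.classInner_subgroupOf N T hNT ψ (θ : N → ℂ)]
    exact h
  · rintro ⟨θ, hθ, h⟩
    refine ⟨Cfsg.Agent.Lib.Helper77.mapIrr (Subgroup.subgroupOfEquivOfLe hNT).symm θ,
      ⟨θ, hθ, rfl⟩, ?_⟩
    rw [← Cfsg.Agent.Lib.Helper75.classInner_subgroupOf N T hNT ψ (θ : N → ℂ)] at h
    exact h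

lemma subBlock_stable {b : Set (Cfsg.IrrCharacter N)}
    (hinv : ∀ g ∈ T, ∀ θ ∈ b, conjIrr N θ g ∈ b) :
    ∀ θ' ∈ subBlock N T hNT b, ∀ t : T, conjIrr (N.subgroupOf T) θ' t ∈ subBlock N T hNT b := by
  rintro θ' ⟨θ, hθ, rfl⟩ t
  refine ⟨conjIrr N θ (t : G), hinv t t.2 θ hθ, ?_⟩
  apply Subtype.ext
  exact (Cfsg.Agent.Lib.Helper75.conjChar_subgroupOf N T hNT (θ : N → ℂ) t).symm

open scoped Classical in
/-- the transported set as a finset -/
noncomputable def subFin (b : Set (Cfsg.IrrCharacter N)) :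
    Finset (Cfsg.IrrCharacter (N.subgroupOf T)) :=
  (Set.toFinite (subBlock N T hNT b)).toFinset

lemma mem_subFin (b : Set (Cfsg.IrrCharacter N)) (θ' : Cfsg.IrrCharacter (N.subgroupOf T)) :
    θ' ∈ subFin N T hNT b ↔ θ' ∈ subBlock N T hNT b := by
  unfold subFin
  rw [Set.Finite.mem_toFinset]

/-- the idempotent of `b`, as a class function on `T` -/
noncomputable def subIdem (b : Set (Cfsg.IrrCharacter N)) : T → ℂ :=
  normalIdem (N.subgroupOf T) (subFin N T hNT b)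

lemma subFin_stable {b : Set (Cfsg.IrrCharacter N)}
    (hinv : ∀ g ∈ T, ∀ θ ∈ b, conjIrr N θ g ∈ b) :
    ∀ θ' ∈ subFin N T hNT b, ∀ t : T, conjIrr (N.subgroupOf T) θ' t ∈ subFin N T hNT b := by
  intro θ' hθ' t
  rw [mem_subFin] at hθ' ⊢
  exact subBlock_stable N T hNT hinv θ' hθ' t

lemma isRClass_subIdem (hM : M.IsPrime) {b : Set (Cfsg.IrrCharacter N)}
    (hb : Cfsg.IsPBlock M b) (hinv : ∀ g ∈ T, ∀ θ ∈ b, conjIrr N θ g ∈ b) :
    IsRClass M (subIdem N T hNT b) := by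
  have hb' : Cfsg.IsPBlock M (subBlock N T hNT b) :=
    Cfsg.Agent.Lib.Helper77.isPBlock_mapSet hM _ hb
  apply isRClass_normalIdem (N.subgroupOf T) hM _ (subFin_stable N T hNT hinv)
  apply memLocalRing_sum_idem_of_blockClosed (N.subgroupOf T) hM _ _ rfl
  intro θ' hθ' θ'' hs
  rw [mem_subFin] at hθ' ⊢
  rw [IsPBlock.eq_blockOf hM hb' hθ']
  exact hs

lemma omega_subIdem_of_over {b : Set (Cfsg.IrrCharacter N)}
    (hinv : ∀ g ∈ T, ∀ θ ∈ b, conjIrr N θ g ∈ b) (ψ : Cfsg.IrrCharacter T)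
    (h : Over N T hNT b (ψ : T → ℂ)) : omega (ψ : T → ℂ) (subIdem N T hNT b) = 1 := by
  apply omega_normalIdem_eq_one (N.subgroupOf T) _ (subFin_stable N T hNT hinv) ψ
  obtain ⟨θ', hθ', hne⟩ := (over_iff_sub N T hNT b (ψ : T → ℂ)).mpr h
  exact ⟨θ', (mem_subFin N T hNT b θ').mpr hθ', hne⟩

lemma omega_subIdem_of_not_over {b : Set (Cfsg.IrrCharacter N)} (ψ : Cfsg.IrrCharacter T)
    (h : ¬ Over N T hNT b (ψ : T → ℂ)) : omega (ψ : T → ℂ) (subIdem N T hNT b) = 0 := by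
  by_contra hne
  obtain ⟨θ', hθ', hcon⟩ := exists_constituent_of_omega_ne_zero (N.subgroupOf T) _ _ hne
  exact h ((over_iff_sub N T hNT b (ψ : T → ℂ)).mp ⟨θ', (mem_subFin N T hNT b θ').mp hθ', hcon⟩)

/-- covering is a property of blocks, for the subgroup `T` -/
theorem cover_all_sub (hM : M.IsPrime) {b : Set (Cfsg.IrrCharacter N)}
    (hb : Cfsg.IsPBlock M b) {B' : Set (Cfsg.IrrCharacter T)} (hB' : Cfsg.IsPBlock M B')
    {ψ₀ : Cfsg.IrrCharacter T} (hψ₀ : ψ₀ ∈ B') (h₀ : Over N T hNT b (ψ₀ : T → ℂ))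
    {ψ : Cfsg.IrrCharacter T} (hψ : ψ ∈ B') : Over N T hNT b (ψ : T → ℂ) := by
  obtain ⟨θ', hθ', hne⟩ := (over_iff_sub N T hNT b (ψ₀ : T → ℂ)).mpr h₀
  have hb' : Cfsg.IsPBlock M (subBlock N T hNT b) :=
    Cfsg.Agent.Lib.Helper77.isPBlock_mapSet hM _ hb
  obtain ⟨θ'', hθ'', hne'⟩ := cover_all (N.subgroupOf T) hM hB' hb' hψ₀ hθ' hne hψ
  exact (over_iff_sub N T hNT b (ψ : T → ℂ)).mp ⟨θ'', hθ'', hne'⟩

end Sub

/-- **Test functions for the Fong–Reynolds correspondence.**  For every `t₀ ∈ T` there is a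
class function of `G` with local integer values whose central character value at the character
induced from `ψ ∈ Irr(T | b)` is the central character of `ψ` at `t₀`. -/
theorem exists_test_function (hM : M.IsPrime) {b : Set (Cfsg.IrrCharacter N)}
    (hb : Cfsg.IsPBlock M b) (hstab : ∀ g : G, g ∈ T ↔ ∀ θ ∈ b, conjIrr N θ g ∈ b) (t₀ : T) :
    ∃ z : G → ℂ, IsRClass M z ∧ ∀ ψ : Cfsg.IrrCharacter T, Over N T hNT b (ψ : T → ℂ) →
      omega (Cfsg.indFun T (ψ : T → ℂ)) z = Cfsg.centralChar (ψ : T → ℂ) t₀ := by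
  classical
  haveI : Fintype (N.subgroupOf T) := Fintype.ofFinite _
  haveI : Fintype (Cfsg.IrrCharacter T) := Fintype.ofFinite _
  have hinv : ∀ g ∈ T, ∀ θ ∈ b, conjIrr N θ g ∈ b := fun g hg => (hstab g).mp hg
  have hε := isRClass_subIdem N T hNT hM hb hinv
  have hβR : IsRClass M (conv (classInd t₀) (subIdem N T hNT b)) :=
    isRClass_conv hM (isRClass_classInd hM t₀) hε
  refine ⟨Cfsg.indFun T (conv (classInd t₀) (subIdem N T hNT b)), isRClass_indFun hM T hβR, ?_⟩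
  intro ψ hψ
  obtain ⟨θ, hθ, hcon⟩ := hψ
  have hI := inertia_le_stab N T hM hb hstab hθ
  obtain ⟨hirr, hmult⟩ := induced_irr_le N T hNT θ.2 hI ψ.2 hcon
  have hχc := Cfsg.Agent.Lib.Helper3.isCharacter_of_irr hirr
  have hχcf := Cfsg.Agent.Lib.Helper3.isClassFunction_of_isCharacter hχc
  obtain ⟨a, ha, hsum⟩ := Cfsg.Agent.Lib.Helper75.char_eq_sum_irr
    (Cfsg.Agent.Lib.Helper75.isCharacter_res T hχc)
  -- Step 1: Frobenius reciprocity
  have h1 : omega (Cfsg.indFun T (ψ : T → ℂ))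
      (Cfsg.indFun T (conv (classInd t₀) (subIdem N T hNT b))) =
      (T.index : ℂ) * (∑ t : T, conv (classInd t₀) (subIdem N T hNT b) t *
        Cfsg.indFun T (ψ : T → ℂ) t) / Cfsg.indFun T (ψ : T → ℂ) 1 := by
    unfold omega
    rw [← Finset.sum_div, sum_indFun_mul T _ hχcf]
  -- Step 2: decomposition of the restriction
  have hom : ∀ (ψ' : Cfsg.IrrCharacter T) (β : T → ℂ),
      ∑ t : T, β t * (ψ' : T → ℂ) t = (ψ' : T → ℂ) 1 * omega (ψ' : T → ℂ) β := by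
    intro ψ' β
    unfold omega
    rw [← Finset.sum_div]
    have := irr_one_ne_zero ψ'
    field_simp
  have h2 : ∑ t : T, conv (classInd t₀) (subIdem N T hNT b) t * Cfsg.indFun T (ψ : T → ℂ) t =
      ∑ ψ' : Cfsg.IrrCharacter T, (a ψ' : ℂ) * ((ψ' : T → ℂ) 1 *
        omega (ψ' : T → ℂ) (conv (classInd t₀) (subIdem N T hNT b))) := by
    have e : ∀ t : T, Cfsg.indFun T (ψ : T → ℂ) t =
        ∑ ψ' : Cfsg.IrrCharacter T, (a ψ' : ℂ) * (ψ' : T → ℂ) t := by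
      intro t
      have := congrFun hsum t
      simp only [Finset.sum_apply, Pi.smul_apply, smul_eq_mul] at this
      exact this
    simp_rw [e, Finset.mul_sum]
    rw [Finset.sum_comm]
    apply Finset.sum_congr rfl
    intro ψ' _
    rw [← hom ψ', Finset.mul_sum]
    apply Finset.sum_congr rfl
    intro t _
    ring
  -- Step 3: multiplicativity
  have h3 : ∀ ψ' : Cfsg.IrrCharacter T,
      omega (ψ' : T → ℂ) (conv (classInd t₀) (subIdem N T hNT b)) =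
        Cfsg.centralChar (ψ' : T → ℂ) t₀ * omega (ψ' : T → ℂ) (subIdem N T hNT b) := by
    intro ψ'
    rw [omega_conv ψ' (isClassFunction_classInd t₀) hε.1,
      omega_classInd (irrCharacter_conj_eq ψ') t₀]
  -- the multiplicity of `ψ` is one
  have ha1 : (a ψ : ℂ) = 1 := by
    have f1 := Cfsg.Agent.Lib.Helper75.frobenius_reciprocity T (ψ : T → ℂ) hχcf
    rw [Cfsg.Agent.Lib.Helper3.classInner_irr_self hirr,
      Cfsg.Agent.Lib.Helper75.classInner_conj_symm, ha ψ] at f1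
    simpa using f1.symm
  -- Step 4: the other constituents do not lie over `b`
  have h4 : ∀ ψ' : Cfsg.IrrCharacter T, ψ' ≠ ψ → (a ψ' : ℂ) * ((ψ' : T → ℂ) 1 *
      omega (ψ' : T → ℂ) (conv (classInd t₀) (subIdem N T hNT b))) = 0 := by
    intro ψ' hne
    by_cases hov : Over N T hNT b (ψ' : T → ℂ)
    · have ha0 : a ψ' = 0 := by
        by_contra ha0
        apply hne
        obtain ⟨θ', hθ', hcon'⟩ := hov
        have hI' := inertia_le_stab N T hM hb hstab hθ'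
        obtain ⟨hirr', hmult'⟩ := induced_irr_le N T hNT θ'.2 hI' ψ'.2 hcon'
        have hψ'χ : Cfsg.classInner (Cfsg.indFun T (ψ' : T → ℂ))
            (Cfsg.indFun T (ψ : T → ℂ)) ≠ 0 := by
          rw [Cfsg.Agent.Lib.Helper75.frobenius_reciprocity T (ψ' : T → ℂ) hχcf,
            Cfsg.Agent.Lib.Helper75.classInner_conj_symm, ha ψ']
          simp [ha0]
        have heq : Cfsg.indFun T (ψ' : T → ℂ) = Cfsg.indFun T (ψ : T → ℂ) := by
          by_contra hne'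
          exact hψ'χ (Cfsg.Agent.Lib.Helper3.classInner_irr_ne hirr' hirr hne')
        have hχθ : Cfsg.classInner (fun n : N => Cfsg.indFun T (ψ : T → ℂ) n) (θ : N → ℂ) ≠ 0 := by
          rw [hmult]
          exact hcon
        have hχθ' : Cfsg.classInner (fun n : N => Cfsg.indFun T (ψ : T → ℂ) n)
            (θ' : N → ℂ) ≠ 0 := by
          rw [← heq, hmult']
          exact hcon'
        obtain ⟨g, hg⟩ := Cfsg.Agent.Lib.Helper75.clifford_conj N hirr θ.2 θ'.2 hχθ hχθ'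
        have hgT : g ∈ T := by
          apply stab_mem_of_conj N T hM hb hstab hθ (g := g)
          have : conjIrr N θ g = θ' := Subtype.ext hg
          rw [this]
          exact hθ'
        have hcon'' : Cfsg.classInner (fun n : N => (ψ' : T → ℂ) ⟨(n : G), hNT n.2⟩)
            (θ : N → ℂ) ≠ 0 := by
          rw [← classInner_res_conjChar_le N T hNT (ψ' : T → ℂ)
            (Cfsg.Agent.Lib.Helper3.isClassFunction_of_isCharacter
              (Cfsg.Agent.Lib.Helper3.isCharacter_of_irr ψ'.2)) (θ : N → ℂ) hgT, hg]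
          exact hcon'
        have hψχ : Cfsg.classInner (Cfsg.indFun T (ψ : T → ℂ))
            (Cfsg.indFun T (ψ : T → ℂ)) ≠ 0 := by
          rw [Cfsg.Agent.Lib.Helper3.classInner_irr_self hirr]
          exact one_ne_zero
        obtain ⟨-, -, huniq⟩ := clifford_unique_le N T hNT hirr θ.2 hI ψ.2 hcon hψχ
        exact Subtype.ext (huniq (ψ' : T → ℂ) ψ'.2 hcon'' hψ'χ)
      rw [ha0]
      simp
    · rw [h3, omega_subIdem_of_not_over N T hNT ψ' hov]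
      simp
  -- Step 5
  rw [h1, h2, Finset.sum_eq_single ψ (fun ψ' _ hne => h4 ψ' hne)
    (fun h => absurd (Finset.mem_univ ψ) h), ha1, h3,
    omega_subIdem_of_over N T hNT hinv ψ ⟨θ, hθ, hcon⟩, Cfsg.Agent.Lib.Helper75.indFun_one]
  have hT0 : (T.index : ℂ) ≠ 0 := by
    exact_mod_cast (Subgroup.index_ne_zero_of_finite (H := T))
  have := irr_one_ne_zero ψ
  field_simp

/-- **Fong–Reynolds, injectivity**: two blocks of the stabilizer covering `b` and inducing the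
same block of `G` are equal. -/
theorem fr_inj (hM : M.IsPrime) {b : Set (Cfsg.IrrCharacter N)}
    (hb : Cfsg.IsPBlock M b) (hstab : ∀ g : G, g ∈ T ↔ ∀ θ ∈ b, conjIrr N θ g ∈ b)
    {B₁ B₂ : Set (Cfsg.IrrCharacter T)} (hB₁ : Cfsg.IsPBlock M B₁) (hB₂ : Cfsg.IsPBlock M B₂)
    (h₁ : ∃ ψ ∈ B₁, Over N T hNT b (ψ : T → ℂ)) (h₂ : ∃ ψ ∈ B₂, Over N T hNT b (ψ : T → ℂ))
    {B : Set (Cfsg.IrrCharacter G)} (hi₁ : Cfsg.IsInducedBlock M T B₁ B)
    (hi₂ : Cfsg.IsInducedBlock M T B₂ B) : B₁ = B₂ := by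
  obtain ⟨ψ₁, hψ₁, θ₁, hθ₁, hc₁⟩ := h₁
  obtain ⟨ψ₂, hψ₂, θ₂, hθ₂, hc₂⟩ := h₂
  have hirr₁ := (induced_irr_le N T hNT θ₁.2 (inertia_le_stab N T hM hb hstab hθ₁) ψ₁.2 hc₁).1
  have hirr₂ := (induced_irr_le N T hNT θ₂.2 (inertia_le_stab N T hM hb hstab hθ₂) ψ₂.2 hc₂).1
  obtain ⟨χ₀, hχ₀⟩ := IsPBlock.nonempty hM hi₁.2.1
  have hs : Cfsg.SameBlock M ((⟨_, hirr₁⟩ : Cfsg.IrrCharacter G) : G → ℂ)
      ((⟨_, hirr₂⟩ : Cfsg.IrrCharacter G) : G → ℂ) := by
    intro g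
    have a1 := hi₁.2.2 ψ₁ hψ₁ χ₀ hχ₀ g
    have a2 := hi₂.2.2 ψ₂ hψ₂ χ₀ hχ₀ g
    show MemLocalIdeal M (Cfsg.centralChar (Cfsg.indFun T (ψ₁ : T → ℂ)) g -
      Cfsg.centralChar (Cfsg.indFun T (ψ₂ : T → ℂ)) g)
    rw [centralChar_indFun, centralChar_indFun]
    have := memLocalIdeal_sub hM a1 a2
    rwa [sub_sub_sub_cancel_right] at this
  rw [IsPBlock.eq_blockOf hM hB₁ hψ₁, IsPBlock.eq_blockOf hM hB₂ hψ₂]
  apply blockOf_eq_of_sameBlock hM
  intro t₀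
  obtain ⟨z, hz, hkey⟩ := exists_test_function N T hNT hM hb hstab t₀
  have := memLocalIdeal_omega_sub hM hs hz
  rw [hkey ψ₁ ⟨θ₁, hθ₁, hc₁⟩, hkey ψ₂ ⟨θ₂, hθ₂, hc₂⟩] at this
  exact this

/-- **Fong–Reynolds, induction**: a block `B'` of the stabilizer `T` of `b` covering `b` induces
a block of `G` covering `b`, whose members are exactly the (irreducible) characters induced
from the members of `B'`. -/
theorem fr_induced (hM : M.IsPrime) {b : Set (Cfsg.IrrCharacter N)}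
    (hb : Cfsg.IsPBlock M b) (hstab : ∀ g : G, g ∈ T ↔ ∀ θ ∈ b, conjIrr N θ g ∈ b)
    {B' : Set (Cfsg.IrrCharacter T)} (hB' : Cfsg.IsPBlock M B')
    (hcov : ∃ ψ ∈ B', Over N T hNT b (ψ : T → ℂ)) :
    ∃ B : Set (Cfsg.IrrCharacter G), Cfsg.IsInducedBlock M T B' B ∧
      (∃ χ ∈ B, ∃ θ ∈ b, Cfsg.classInner (fun n : N => (χ : G → ℂ) n) (θ : N → ℂ) ≠ 0) ∧
      (∀ ψ ∈ B', Over N T hNT b (ψ : T → ℂ)) ∧
      (∀ ψ ∈ B', Cfsg.IsIrrCharacter G (Cfsg.indFun T (ψ : T → ℂ))) ∧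
      ∀ χ : Cfsg.IrrCharacter G, χ ∈ B ↔ ∃ ψ ∈ B', (χ : G → ℂ) = Cfsg.indFun T (ψ : T → ℂ) := by
  classical
  haveI : Fintype (N.subgroupOf T) := Fintype.ofFinite _
  obtain ⟨ψ₀, hψ₀, θ₀, hθ₀, hcon₀⟩ := hcov
  have hall : ∀ ψ ∈ B', Over N T hNT b (ψ : T → ℂ) := fun ψ hψ =>
    cover_all_sub N T hNT hM hb hB' hψ₀ ⟨θ₀, hθ₀, hcon₀⟩ hψ
  have hirr : ∀ ψ ∈ B', Cfsg.IsIrrCharacter G (Cfsg.indFun T (ψ : T → ℂ)) := by
    intro ψ hψ
    obtain ⟨θ, hθ, hcon⟩ := hall ψ hψ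
    exact (induced_irr_le N T hNT θ.2 (inertia_le_stab N T hM hb hstab hθ) ψ.2 hcon).1
  obtain ⟨χ₀, hχ₀⟩ : ∃ χ₀ : Cfsg.IrrCharacter G, (χ₀ : G → ℂ) = Cfsg.indFun T (ψ₀ : T → ℂ) :=
    ⟨⟨_, hirr ψ₀ hψ₀⟩, rfl⟩
  have hind₀ : Cfsg.IsInducedBlock M T B' (Cfsg.blockOf M (χ₀ : G → ℂ)) := by
    have := isInducedBlock_blockOf hM T ψ₀ χ₀ hχ₀
    rwa [← IsPBlock.eq_blockOf hM hB' hψ₀] at this
  have hcovχ₀ : Cfsg.classInner (fun n : N => (χ₀ : G → ℂ) n) (θ₀ : N → ℂ) ≠ 0 := by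
    rw [hχ₀, (induced_irr_le N T hNT θ₀.2 (inertia_le_stab N T hM hb hstab hθ₀) ψ₀.2 hcon₀).2]
    exact hcon₀
  refine ⟨Cfsg.blockOf M (χ₀ : G → ℂ), hind₀, ⟨χ₀, mem_blockOf_self hM χ₀, θ₀, hθ₀, hcovχ₀⟩,
    hall, hirr, ?_⟩
  intro χ
  constructor
  · intro hχ
    obtain ⟨θ, hθ, hconχ⟩ := cover_all N hM (isPBlock_blockOf χ₀) hb (mem_blockOf_self hM χ₀)
      hθ₀ hcovχ₀ hχ
    obtain ⟨η, hη, hηχ, hηθ⟩ := exists_induced_le N T hNT χ.2 θ.2
      (inertia_le_stab N T hM hb hstab hθ) hconχ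
    have hind' : Cfsg.IsInducedBlock M T (Cfsg.blockOf M η) (Cfsg.blockOf M (χ : G → ℂ)) :=
      isInducedBlock_blockOf hM T ⟨η, hη⟩ χ hηχ.symm
    have hBχ : Cfsg.blockOf M (χ : G → ℂ) = Cfsg.blockOf M (χ₀ : G → ℂ) :=
      (blockOf_eq_of_sameBlock hM hχ).symm
    rw [hBχ] at hind'
    have heq := fr_inj N T hNT hM hb hstab (isPBlock_blockOf (⟨η, hη⟩ : Cfsg.IrrCharacter T)) hB'
      ⟨⟨η, hη⟩, mem_blockOf_self hM _, θ, hθ, hηθ⟩ ⟨ψ₀, hψ₀, θ₀, hθ₀, hcon₀⟩ hind' hind₀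
    refine ⟨⟨η, hη⟩, ?_, hηχ.symm⟩
    rw [← heq]
    exact mem_blockOf_self hM _
  · rintro ⟨ψ, hψ, hχψ⟩
    have h1 := isInducedBlock_blockOf hM T ψ χ hχψ
    rw [← IsPBlock.eq_blockOf hM hB' hψ] at h1
    have := isInducedBlock_unique hM T h1 hind₀
    rw [← this]
    exact mem_blockOf_self hM χ

/-- **Fong–Reynolds, surjectivity**: every block of `G` covering `b` is induced from a block of
the stabilizer covering `b`. -/
theorem fr_surj (hM : M.IsPrime) {b : Set (Cfsg.IrrCharacter N)}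
    (hb : Cfsg.IsPBlock M b) (hstab : ∀ g : G, g ∈ T ↔ ∀ θ ∈ b, conjIrr N θ g ∈ b)
    {B : Set (Cfsg.IrrCharacter G)} (hB : Cfsg.IsPBlock M B)
    (hcov : ∃ χ ∈ B, ∃ θ ∈ b, Cfsg.classInner (fun n : N => (χ : G → ℂ) n) (θ : N → ℂ) ≠ 0) :
    ∃ B' : Set (Cfsg.IrrCharacter T), Cfsg.IsPBlock M B' ∧
      (∃ ψ ∈ B', Over N T hNT b (ψ : T → ℂ)) ∧ Cfsg.IsInducedBlock M T B' B := by
  obtain ⟨χ, hχ, θ, hθ, hcon⟩ := hcov
  obtain ⟨η, hη, hηχ, hηθ⟩ := exists_induced_le N T hNT χ.2 θ.2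
    (inertia_le_stab N T hM hb hstab hθ) hcon
  refine ⟨Cfsg.blockOf M η, isPBlock_blockOf (⟨η, hη⟩ : Cfsg.IrrCharacter T),
    ⟨⟨η, hη⟩, mem_blockOf_self hM (⟨η, hη⟩ : Cfsg.IrrCharacter T), θ, hθ, hηθ⟩, ?_⟩
  have := isInducedBlock_blockOf hM T ⟨η, hη⟩ χ hηχ.symm
  rwa [← IsPBlock.eq_blockOf hM hB hχ] at this

end

end Cfsg.Agent.Lib.Helper16
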