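import Mathlib
import Cfsg.Prelude.Def_Blocks
import Cfsg.Agent.Lib.Helper16.FongReynolds
import Cfsg.Agent.Lib.Helper77.MaxPair
import Cfsg.Agent.Lib.Helper77.Degree
import Cfsg.Agent.Lib.Helper76.BlockInd

/-!
# Defect groups and heights under induction of blocks

If the members of the block `B` of `G` are exactly the (irreducible) characters induced from the
members of the block `B'` of the subgroup `T`, then `B` and `B'` have the same defect, every
defect group of `B'` is a defect group of `B`, and induction preserves heights.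
-/

set_option autoImplicit false

namespace Cfsg.Agent.Lib.Helper16

open Cfsg
open scoped ComplexConjugate

lemma sInf_image_add {S : Set ℕ} (hS : S.Nonempty) (c : ℕ) :
    sInf ((fun x => c + x) '' S) = c + sInf S := by
  apply le_antisymm
  · exact Nat.sInf_le ⟨sInf S, Nat.sInf_mem hS, rfl⟩
  · apply le_csInf (hS.image _)
    rintro _ ⟨x, hx, rfl⟩
    exact Nat.add_le_add_left (Nat.sInf_le hx) c

section
variable {G : Type*} [Group G] [Fintype G] {M : Ideal Cfsg.AlgInt}

open scoped Classical in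
/-- if the induced central character is outside the local ideal at `g`, so is the central
character at some conjugate of `g` in the subgroup -/
lemma exists_conj_not_memLocalIdeal (hM : M.IsPrime) (H : Subgroup G) [Fintype H]
    (ξ : Cfsg.IrrCharacter H) (g : G)
    (h : ¬ MemLocalIdeal M (Cfsg.inducedCentralChar H (ξ : H → ℂ) g)) :
    ∃ t : H, IsConj g (t : G) ∧ ¬ MemLocalIdeal M (Cfsg.centralChar (ξ : H → ℂ) t) := by
  by_contra hcon
  push Not at hcon
  apply h
  rw [inducedCentralChar_eq_sum]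
  have key : MemLocalIdeal M (∑ t ∈ Finset.univ.filter (fun t : H => IsConj g (t : G)),
      (fun t : H => if IsConj g (t : G) then (ξ : H → ℂ) t / (ξ : H → ℂ) 1 else 0) t) := by
    apply sum_class_invariant_mem (MemLocalIdeal M) (memLocalIdeal_zero hM)
      (fun a b ha hb => memLocalIdeal_add hM ha hb)
    · intro x t
      have e : ((x * t * x⁻¹ : H) : G) = (x : G) * (t : G) * (x : G)⁻¹ := by simp
      have hc : IsConj (t : G) ((x * t * x⁻¹ : H) : G) := by
        rw [e]
        exact isConj_iff.mpr ⟨(x : G), rfl⟩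
      by_cases hg : IsConj g (t : G)
      · simp only [if_pos hg, if_pos (hg.trans hc)]
        rw [irrCharacter_conj_eq ξ x t]
      · have hg' : ¬ IsConj g ((x * t * x⁻¹ : H) : G) := fun h' => hg (h'.trans hc.symm)
        simp only [if_neg hg, if_neg hg']
    · intro t
      by_cases hg : IsConj g (t : G)
      · simp only [if_pos hg]
        have := hcon t hg
        unfold Cfsg.centralChar at this
        rw [← mul_div_assoc]
        exact this
      · simp only [if_neg hg, mul_zero]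
        exact memLocalIdeal_zero hM
    · intro x t ht
      rw [Finset.mem_filter] at ht ⊢
      refine ⟨Finset.mem_univ _, ?_⟩
      have : IsConj (t : G) ((x * t * x⁻¹ : H) : G) := by
        rw [isConj_iff]
        exact ⟨(x : G), by simp⟩
      exact ht.2.trans this
  convert key using 1
  apply Finset.sum_congr
  · congr
  · intro t ht
    rw [Finset.mem_filter] at ht
    simp only [if_pos ht.2]

variable (T : Subgroup G) [Fintype T]

/-- the exponents of `p` in the degrees of a block consisting of induced characters -/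
theorem degSet_induced (p : ℕ) {B' : Set (Cfsg.IrrCharacter T)}
    {B : Set (Cfsg.IrrCharacter G)}
    (hmem : ∀ χ : Cfsg.IrrCharacter G, χ ∈ B ↔
      ∃ ψ ∈ B', (χ : G → ℂ) = Cfsg.indFun T (ψ : T → ℂ))
    (hirr : ∀ ψ ∈ B', Cfsg.IsIrrCharacter G (Cfsg.indFun T (ψ : T → ℂ))) :
    (fun χ : Cfsg.IrrCharacter G => (Cfsg.charDegree (χ : G → ℂ)).factorization p) '' B =
      (fun x => (T.index).factorization p + x) ''
        ((fun ψ : Cfsg.IrrCharacter T => (Cfsg.charDegree (ψ : T → ℂ)).factorization p) '' B') := by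
  have hidx : T.index ≠ 0 := Subgroup.index_ne_zero_of_finite
  have hdeg : ∀ ψ : Cfsg.IrrCharacter T, Cfsg.charDegree (ψ : T → ℂ) ≠ 0 := fun ψ =>
    (Cfsg.Agent.Lib.Helper79.irr_charDegree ψ.2).2.1.ne'
  have key : ∀ ψ : Cfsg.IrrCharacter T,
      (Cfsg.charDegree (Cfsg.indFun T (ψ : T → ℂ))).factorization p =
        (T.index).factorization p + (Cfsg.charDegree (ψ : T → ℂ)).factorization p := by
    intro ψ
    rw [Cfsg.Agent.Lib.Helper76.charDegree_indFun T ψ, Nat.factorization_mul hidx (hdeg ψ)]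
    rfl
  ext n
  constructor
  · rintro ⟨χ, hχ, rfl⟩
    obtain ⟨ψ, hψ, hχψ⟩ := (hmem χ).mp hχ
    refine ⟨_, ⟨ψ, hψ, rfl⟩, ?_⟩
    show (T.index).factorization p + (Cfsg.charDegree (ψ : T → ℂ)).factorization p =
      (Cfsg.charDegree (χ : G → ℂ)).factorization p
    rw [hχψ, key ψ]
  · rintro ⟨_, ⟨ψ, hψ, rfl⟩, rfl⟩
    refine ⟨⟨_, hirr ψ hψ⟩, (hmem _).mpr ⟨ψ, hψ, rfl⟩, ?_⟩
    exact key ψ

/-- a block consisting of induced characters has the same defect -/
theorem blockDefect_induced (p : ℕ) {B' : Set (Cfsg.IrrCharacter T)}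
    {B : Set (Cfsg.IrrCharacter G)}
    (hmem : ∀ χ : Cfsg.IrrCharacter G, χ ∈ B ↔
      ∃ ψ ∈ B', (χ : G → ℂ) = Cfsg.indFun T (ψ : T → ℂ))
    (hirr : ∀ ψ ∈ B', Cfsg.IsIrrCharacter G (Cfsg.indFun T (ψ : T → ℂ)))
    (hne : B'.Nonempty) : Cfsg.blockDefect p B = Cfsg.blockDefect p B' := by
  unfold Cfsg.blockDefect
  rw [degSet_induced T p hmem hirr, sInf_image_add (hne.image _)]
  have hidx : T.index ≠ 0 := Subgroup.index_ne_zero_of_finite
  have hcard : Nat.card T ≠ 0 := Nat.card_pos.ne'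
  have hG : Nat.card G = T.index * Nat.card T := (Subgroup.index_mul_card T).symm
  rw [hG, Nat.factorization_mul hidx hcard, Finsupp.add_apply]
  omega

/-- induction preserves heights in a block consisting of induced characters -/
theorem blockHeight_induced (p : ℕ) {B' : Set (Cfsg.IrrCharacter T)}
    {B : Set (Cfsg.IrrCharacter G)}
    (hmem : ∀ χ : Cfsg.IrrCharacter G, χ ∈ B ↔
      ∃ ψ ∈ B', (χ : G → ℂ) = Cfsg.indFun T (ψ : T → ℂ))
    (hirr : ∀ ψ ∈ B', Cfsg.IsIrrCharacter G (Cfsg.indFun T (ψ : T → ℂ)))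
    (hne : B'.Nonempty) (ψ : Cfsg.IrrCharacter T) :
    Cfsg.blockHeight p B (Cfsg.indFun T (ψ : T → ℂ)) =
      Cfsg.blockHeight p B' (ψ : T → ℂ) := by
  unfold Cfsg.blockHeight
  rw [degSet_induced T p hmem hirr, sInf_image_add (hne.image _)]
  have hidx : T.index ≠ 0 := Subgroup.index_ne_zero_of_finite
  have hdeg : Cfsg.charDegree (ψ : T → ℂ) ≠ 0 :=
    (Cfsg.Agent.Lib.Helper79.irr_charDegree ψ.2).2.1.ne'
  rw [Cfsg.Agent.Lib.Helper76.charDegree_indFun T ψ, Nat.factorization_mul hidx hdeg,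
    Finsupp.add_apply]
  omega

/-- **Defect groups under induction.** If the members of `B` are exactly the characters induced
from the members of `B'`, every defect group of `B'` is a defect group of `B`. -/
theorem isDefectGroup_induced {p : ℕ} [Fact p.Prime] (hM : Cfsg.IsPModular p M)
    {B' : Set (Cfsg.IrrCharacter T)} (hB' : Cfsg.IsPBlock M B')
    {B : Set (Cfsg.IrrCharacter G)} (hB : Cfsg.IsPBlock M B)
    (hmem : ∀ χ : Cfsg.IrrCharacter G, χ ∈ B ↔
      ∃ ψ ∈ B', (χ : G → ℂ) = Cfsg.indFun T (ψ : T → ℂ))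
    (hirr : ∀ ψ ∈ B', Cfsg.IsIrrCharacter G (Cfsg.indFun T (ψ : T → ℂ)))
    {D : Subgroup T} (hD : Cfsg.IsDefectGroup p M B' D) :
    Cfsg.IsDefectGroup p M B (D.map T.subtype) := by
  classical
  have hMp := isPrime_of_isPModular hM
  obtain ⟨ψ₀, hψ₀⟩ := IsPBlock.nonempty hMp hB'
  have hχ₀ : (⟨_, hirr ψ₀ hψ₀⟩ : Cfsg.IrrCharacter G) ∈ B := (hmem _).mpr ⟨ψ₀, hψ₀, rfl⟩
  obtain ⟨g, hg⟩ := Cfsg.Agent.Lib.Helper77.exists_isDefectClass hMp B hB
  have h1 := hg.2.2 _ hχ₀
  change ¬ MemLocalIdeal M (Cfsg.centralChar (Cfsg.indFun T (ψ₀ : T → ℂ)) g) at h1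
  rw [centralChar_indFun] at h1
  obtain ⟨t, htg, ht⟩ := exists_conj_not_memLocalIdeal hMp T ψ₀ g h1
  have hdc : Cfsg.IsDefectClass M B (t : G) := by
    obtain ⟨c, hc⟩ := isConj_iff.mp htg
    rw [← hc]
    exact Cfsg.Agent.Lib.Helper77.isDefectClass_conj hg c
  have hcD := Cfsg.Agent.Lib.Helper77.card_isDefectGroup hM B' hB' D hD
  obtain ⟨t₁, ht₁, P, rfl⟩ := hD
  obtain ⟨x, Q, hxQ⟩ := Cfsg.Agent.Lib.Helper77.minmax_b hM B' hB' t₁ ht₁ P t ⟨ψ₀, hψ₀, ht⟩
  have hDp : IsPGroup p ((P : Subgroup (Subgroup.centralizer ({t₁} : Set T))).map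
      (Subgroup.centralizer ({t₁} : Set T)).subtype) := P.isPGroup'.map _
  obtain ⟨R, hR⟩ : ∃ R : Subgroup G, R =
      (((P : Subgroup (Subgroup.centralizer ({t₁} : Set T))).map
      (Subgroup.centralizer ({t₁} : Set T)).subtype).map (MulAut.conj x).toMonoidHom).map
        T.subtype := ⟨_, rfl⟩
  have hRp : IsPGroup p R := by
    rw [hR]
    exact (hDp.map _).map _
  have hRc : ∀ r ∈ R, r * (t : G) = (t : G) * r := by
    intro r hr
    rw [hR] at hr
    obtain ⟨u, hu, rfl⟩ := hr
    obtain ⟨q, hq, hqu⟩ := hxQ hu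
    have := Subgroup.mem_centralizer_iff.mp q.2 t (Set.mem_singleton _)
    rw [← hqu]
    exact congrArg Subtype.val this.symm
  obtain ⟨S, hS⟩ := Cfsg.Agent.Lib.Helper77.exists_sylow_centralizer_ge p R hRp (t : G) hRc
  have hSdef : Cfsg.IsDefectGroup p M B
      ((S : Subgroup (Subgroup.centralizer ({(t : G)} : Set G))).map
        (Subgroup.centralizer ({(t : G)} : Set G)).subtype) := ⟨(t : G), hdc, S, rfl⟩
  have hcS := Cfsg.Agent.Lib.Helper77.card_isDefectGroup hM B hB _ hSdef
  have hcR : Nat.card R = Nat.card ((P : Subgroup (Subgroup.centralizer ({t₁} : Set T))).map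
      (Subgroup.centralizer ({t₁} : Set T)).subtype) := by
    rw [hR, Subgroup.card_map_of_injective (Subgroup.subtype_injective T),
      Subgroup.card_map_of_injective (MulEquiv.injective _)]
  have hdef := blockDefect_induced T p hmem hirr ⟨ψ₀, hψ₀⟩
  have hRS : R = (S : Subgroup (Subgroup.centralizer ({(t : G)} : Set G))).map
      (Subgroup.centralizer ({(t : G)} : Set G)).subtype :=
    Subgroup.eq_of_le_of_card_ge hS (by rw [hcS, hcR, hcD, hdef])
  have hRdef : Cfsg.IsDefectGroup p M B R := by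
    rw [hRS]
    exact hSdef
  have hfin := Cfsg.Agent.Lib.Helper77.isDefectGroup_map_conj hRdef ((x : G)⁻¹)
  have e : R.map (MulAut.conj ((x : G)⁻¹)).toMonoidHom =
      ((P : Subgroup (Subgroup.centralizer ({t₁} : Set T))).map
      (Subgroup.centralizer ({t₁} : Set T)).subtype).map T.subtype := by
    rw [hR, Subgroup.map_map, Subgroup.map_map]
    congr 1
    ext d
    simp [MulAut.conj_apply, mul_assoc]
  rw [e] at hfin
  exact hfin

end

end Cfsg.Agent.Lib.Helper16
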