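import Mathlib
import Cfsg.Prelude.Def_Blocks
import Cfsg.Agent.Lib.Helper16.FirstMain
import Cfsg.Agent.Lib.Helper77.Osima
import Cfsg.Agent.Lib.Helper78.Swan

/-!
# A lemma of Thompson on class sums and cosets of a Sylow subgroup
-/

set_option autoImplicit false

namespace Cfsg.Agent.Lib.Helper16

open Cfsg
open scoped ComplexConjugate

section
variable {G : Type*} [Group G] [Fintype G] {M : Ideal Cfsg.AlgInt}

/-- convolution with the idempotent of `χ` multiplies by the central character -/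
lemma conv_idem (χ : Cfsg.IrrCharacter G) {z : G → ℂ} (hz : Cfsg.IsClassFunction G z) :
    conv z (idem (χ : G → ℂ)) = omega (χ : G → ℂ) z • idem (χ : G → ℂ) := by
  classical
  have hi := isClassFunction_idem (irrCharacter_conj_eq χ)
  have h0 : conv z (idem (χ : G → ℂ)) - omega (χ : G → ℂ) z • idem (χ : G → ℂ) = 0 := by
    apply eq_zero_of_omega_eq_zero
    · intro g h
      show conv z (idem (χ : G → ℂ)) (h * g * h⁻¹) -
          omega (χ : G → ℂ) z * idem (χ : G → ℂ) (h * g * h⁻¹) =
        conv z (idem (χ : G → ℂ)) g - omega (χ : G → ℂ) z * idem (χ : G → ℂ) g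
      rw [isClassFunction_conv hz hi g h, hi g h]
    · intro ψ
      rw [omega_sub, omega_conv ψ hz hi, omega_smul, omega_idem]
      split_ifs with h
      · subst h; ring
      · ring
  exact sub_eq_zero.mp h0

/-- a nonidentity element of a `p`-subgroup is `p`-singular -/
lemma dvd_orderOf_of_isPGroup {p : ℕ} [Fact p.Prime] {P : Subgroup G} (hP : IsPGroup p P)
    {u : P} (hu : u ≠ 1) : p ∣ orderOf (u : G) := by
  rw [Subgroup.orderOf_coe]
  obtain ⟨k, hk⟩ := hP u
  have h1 : orderOf u ∣ p ^ k := orderOf_dvd_of_pow_eq_one hk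
  obtain ⟨m, -, hm⟩ := (Nat.dvd_prime_pow (Fact.out : p.Prime)).mp h1
  rcases Nat.eq_zero_or_pos m with h0 | h0
  · exfalso
    apply hu
    rw [h0, pow_zero] at hm
    exact orderOf_eq_one_iff.mp hm
  · rw [hm]
    exact dvd_pow_self p h0.ne'

/-- some character of a block has a nonzero sum over a given `p`-subgroup (its restriction
contains the trivial character) -/
theorem exists_sum_pgroup_ne_zero {p : ℕ} [Fact p.Prime] (hM : Cfsg.IsPModular p M)
    (B : Set (Cfsg.IrrCharacter G)) (hB : Cfsg.IsPBlock M B) (P : Subgroup G) [Fintype P]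
    (hP : IsPGroup p P) : ∃ χ ∈ B, ∑ u : P, (χ : G → ℂ) (u : G) ≠ 0 := by
  classical
  have hMp := isPrime_of_isPModular hM
  have : Fintype (Cfsg.IrrCharacter G) := Fintype.ofFinite _
  by_contra hcon
  push_neg at hcon
  have h1 : ∑ u : P, Cfsg.blockCoeff B (u : G) = Cfsg.blockCoeff B 1 := by
    rw [Fintype.sum_eq_single (1 : P)]
    · rfl
    · intro u hu
      exact Cfsg.Agent.Lib.Helper77.blockCoeff_eq_zero_of_singular hM B hB
        (dvd_orderOf_of_isPGroup hP hu)
  have h2 : ∑ u : P, Cfsg.blockCoeff B (u : G) = 0 := by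
    unfold Cfsg.blockCoeff
    rw [← Finset.mul_sum]
    simp_rw [finsum_mem_eq_sum_ite]
    rw [Finset.sum_comm]
    have : ∀ χ : Cfsg.IrrCharacter G, ∑ u : P, (if χ ∈ B then (χ : G → ℂ) 1 *
        conj ((χ : G → ℂ) (u : G)) else 0) = 0 := by
      intro χ
      split_ifs with h
      · rw [← Finset.mul_sum, ← map_sum, hcon χ h, map_zero, mul_zero]
      · simp
    simp_rw [this]
    simp
  have h3 : Cfsg.blockCoeff B (1 : G) ≠ 0 := by
    unfold Cfsg.blockCoeff
    rw [finsum_mem_eq_sum_ite]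
    apply mul_ne_zero (inv_ne_zero card_ne_zero)
    have e : ∑ χ : Cfsg.IrrCharacter G, (if χ ∈ B then (χ : G → ℂ) 1 *
        conj ((χ : G → ℂ) 1) else 0) =
        ((∑ χ : Cfsg.IrrCharacter G, (if χ ∈ B then Complex.normSq ((χ : G → ℂ) 1) else 0) : ℝ) : ℂ) := by
      rw [Complex.ofReal_sum]
      apply Finset.sum_congr rfl
      intro χ _
      split_ifs
      · rw [Complex.mul_conj]
      · simp
    rw [e]
    obtain ⟨χ₀, hχ₀⟩ := IsPBlock.nonempty hMp hB
    have hpos : 0 < ∑ χ : Cfsg.IrrCharacter G,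
        (if χ ∈ B then Complex.normSq ((χ : G → ℂ) 1) else 0) := by
      apply Finset.sum_pos'
      · intro χ _
        split_ifs
        · exact Complex.normSq_nonneg _
        · exact le_rfl
      · refine ⟨χ₀, Finset.mem_univ _, ?_⟩
        rw [if_pos hχ₀]
        exact Complex.normSq_pos.mpr (irr_one_ne_zero χ₀)
    exact_mod_cast hpos.ne'
  exact h3 (h1 ▸ h2)

/-- **Thompson's lemma.** If the restriction of the irreducible character `χ` to the subgroup
`P` contains the trivial character and the central character of `χ` at the class function `z`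
is not in the local ideal, then some coset sum of `z` over `P` is not in the local ideal. -/
theorem exists_not_memLocalIdeal_sum_coset {p : ℕ} [Fact p.Prime] (hM : Cfsg.IsPModular p M)
    (P : Subgroup G) [Fintype P] (χ : Cfsg.IrrCharacter G)
    (hχ : ∑ u : P, (χ : G → ℂ) (u : G) ≠ 0) {z : G → ℂ} (hz : IsRClass M z)
    (hω : ¬ MemLocalIdeal M (omega (χ : G → ℂ) z)) :
    ∃ a : G, ¬ MemLocalIdeal M (∑ u : P, z (a * (u : G))) := by
  classical
  have hMp := isPrime_of_isPModular hM
  by_contra hcon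
  push_neg at hcon
  have hωR : MemLocalRing M (omega (χ : G → ℂ) z) := memLocalRing_omega hMp χ hz
  have hω0 : omega (χ : G → ℂ) z ≠ 0 := fun h => hω (h ▸ memLocalIdeal_zero hMp)
  let φ : G → ℂ := fun g => ∑ u : P, idem (χ : G → ℂ) (g * (u : G))
  have hφinv : ∀ (g : G) (v : P), φ (g * (v : G)) = φ g := by
    intro g v
    show ∑ u : P, idem (χ : G → ℂ) (g * (v : G) * (u : G)) =
      ∑ u : P, idem (χ : G → ℂ) (g * (u : G))
    apply Fintype.sum_equiv (Equiv.mulLeft v)
    intro u
    simp [mul_assoc]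
  have hφ1 : φ 1 ≠ 0 := by
    show ∑ u : P, idem (χ : G → ℂ) (1 * (u : G)) ≠ 0
    unfold idem
    simp only [one_mul]
    rw [← Finset.sum_div, ← Finset.mul_sum, ← map_sum]
    exact div_ne_zero (mul_ne_zero (irr_one_ne_zero χ) ((map_ne_zero _).mpr hχ)) card_ne_zero
  have heig : ∀ g : G, ∑ x : G, z x * φ (x⁻¹ * g) = omega (χ : G → ℂ) z * φ g := by
    intro g
    show ∑ x : G, z x * ∑ u : P, idem (χ : G → ℂ) (x⁻¹ * g * (u : G)) =
      omega (χ : G → ℂ) z * ∑ u : P, idem (χ : G → ℂ) (g * (u : G))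
    simp_rw [Finset.mul_sum]
    rw [Finset.sum_comm]
    apply Finset.sum_congr rfl
    intro u _
    have h := congrFun (conv_idem χ hz.1) (g * (u : G))
    simp only [conv, Pi.smul_apply, smul_eq_mul] at h
    rw [← h]
    apply Finset.sum_congr rfl
    intro x _
    rw [mul_assoc]
  obtain ⟨S, hS, h1S⟩ := Subgroup.exists_isComplement_left P (1 : G)
  have : Fintype S := Fintype.ofFinite _
  have hdecomp : ∀ f : G → ℂ, ∑ y : G, f y = ∑ r : S, ∑ u : P, f ((r : G) * (u : G)) := by
    intro f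
    rw [← Fintype.sum_prod_type']
    exact (Function.Bijective.sum_comp hS f).symm
  have hC : ∀ g : G, omega (χ : G → ℂ) z * φ g =
      ∑ r : S, (∑ u : P, z ((r : G)⁻¹ * g * (u : G))) * φ r := by
    intro g
    rw [← heig g]
    have e1 : ∑ x : G, z x * φ (x⁻¹ * g) = ∑ y : G, z (y⁻¹ * g) * φ y := by
      apply Fintype.sum_equiv ((Equiv.inv G).trans (Equiv.mulRight g))
      intro x
      simp only [Equiv.trans_apply, Equiv.inv_apply, Equiv.coe_mulRight]
      have h := hz.1 x g⁻¹
      rw [inv_inv] at h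
      rw [mul_inv_rev, inv_inv, h]
    rw [e1, hdecomp]
    apply Finset.sum_congr rfl
    intro r _
    rw [Finset.sum_mul]
    apply Fintype.sum_equiv (Equiv.inv P)
    intro u
    simp only [Equiv.inv_apply, Subgroup.coe_inv]
    rw [hφinv]
    congr 1
    have h := hz.1 (((r : G) * (u : G))⁻¹ * g) (u : G)
    rw [← h]
    congr 1
    group
  let A : Matrix S S ℂ := fun q r => (1 : Matrix S S ℂ) q r -
    (omega (χ : G → ℂ) z)⁻¹ * ∑ u : P, z ((r : G)⁻¹ * (q : G) * (u : G))
  have hdet : A.det ≠ 0 := by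
    apply Cfsg.Agent.Lib.Helper78.det_ne_zero_of_congr_one hMp
    intro i j
    have e : A i j - (1 : Matrix S S ℂ) i j =
        -((omega (χ : G → ℂ) z)⁻¹ * ∑ u : P, z ((j : G)⁻¹ * (i : G) * (u : G))) := by
      show (1 : Matrix S S ℂ) i j -
        (omega (χ : G → ℂ) z)⁻¹ * ∑ u : P, z ((j : G)⁻¹ * (i : G) * (u : G)) -
        (1 : Matrix S S ℂ) i j = _
      ring
    rw [e]
    apply memLocalIdeal_neg
    refine memLocalIdeal_mul_left hMp (memLocalRing_inv hωR hω) ?_
    have := hcon ((j : G)⁻¹ * (i : G))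
    exact this
  have hAv : A.mulVec (fun r : S => φ r) = 0 := by
    funext q
    show ∑ r : S, A q r * φ r = 0
    have e : ∀ r : S, A q r * φ r = (1 : Matrix S S ℂ) q r * φ r -
        (omega (χ : G → ℂ) z)⁻¹ * ((∑ u : P, z ((r : G)⁻¹ * (q : G) * (u : G))) * φ r) := by
      intro r
      show ((1 : Matrix S S ℂ) q r -
        (omega (χ : G → ℂ) z)⁻¹ * ∑ u : P, z ((r : G)⁻¹ * (q : G) * (u : G))) * φ r = _
      ring
    simp_rw [e]
    rw [Finset.sum_sub_distrib, ← Finset.mul_sum, ← hC (q : G)]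
    simp only [Matrix.one_apply, ite_mul, one_mul, zero_mul, Finset.sum_ite_eq, Finset.mem_univ,
      if_true]
    field_simp
    ring
  have hv := Matrix.eq_zero_of_mulVec_eq_zero hdet hAv
  exact hφ1 (congrFun hv ⟨1, h1S⟩)

end

end Cfsg.Agent.Lib.Helper16
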