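import Mathlib
import Cfsg.Prelude.Def_Blocks
import Cfsg.Agent.Lib.Helper16.Thompson
import Cfsg.Agent.Lib.Helper16.SylowCent
import Cfsg.Agent.Lib.Helper50.PGroupAux

/-!
# Green's theorem: defect groups are Sylow intersections
-/

set_option autoImplicit false

namespace Cfsg.Agent.Lib.Helper16

open Cfsg
open scoped ComplexConjugate

section
variable {G : Type*} [Group G] [Fintype G] {M : Ideal Cfsg.AlgInt}

lemma mem_map_conj_iff (P : Subgroup G) (a w : G) :
    w ∈ P.map (MulAut.conj a).toMonoidHom ↔ a⁻¹ * w * a ∈ P := by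
  constructor
  · rintro ⟨v, hv, rfl⟩
    have : a⁻¹ * ((MulAut.conj a).toMonoidHom v) * a = v := by
      show a⁻¹ * (a * v * a⁻¹) * a = v
      group
    rw [this]
    exact hv
  · intro h
    refine ⟨a⁻¹ * w * a, h, ?_⟩
    simp [MulAut.conj_apply, mul_assoc]

/-- **Green's theorem for a normal defect group.** -/
theorem green_normal {p : ℕ} [Fact p.Prime] (hM : Cfsg.IsPModular p M)
    (b : Set (Cfsg.IrrCharacter G)) (hb : Cfsg.IsPBlock M b) (D : Subgroup G) (hDn : D.Normal)
    (hD : Cfsg.IsDefectGroup p M b D) (P : Sylow p G) :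
    ∃ y : G, Cfsg.IsDefectClass M b y ∧
      (∃ S : Sylow p (Subgroup.centralizer ({y} : Set G)),
        D = (S : Subgroup (Subgroup.centralizer ({y} : Set G))).map
          (Subgroup.centralizer ({y} : Set G)).subtype) ∧
      (P : Subgroup G) ⊓ (P : Subgroup G).map (MulAut.conj y).toMonoidHom = D := by
  classical
  have hMp := isPrime_of_isPModular hM
  have hDp : IsPGroup p D := isPGroup_of_isDefectGroup hD
  obtain ⟨h0, hh0, Q0, hQ0⟩ := id hD
  have : Fintype (P : Subgroup G) := Fintype.ofFinite _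
  obtain ⟨χ, hχb, hχ⟩ := exists_sum_pgroup_ne_zero hM b hb (P : Subgroup G) P.isPGroup'
  have hω : ¬ MemLocalIdeal M (omega (χ : G → ℂ) (classInd h0)) := by
    rw [omega_classInd (irrCharacter_conj_eq χ)]
    exact hh0.2.2 χ hχb
  obtain ⟨a, ha⟩ := exists_not_memLocalIdeal_sum_coset hM (P : Subgroup G) χ hχ
    (isRClass_classInd hMp h0) hω
  have hQ1p : IsPGroup p ((P : Subgroup G) ⊓ (P : Subgroup G).map (MulAut.conj a).toMonoidHom :
      Subgroup G) := P.isPGroup'.to_le inf_le_left
  have hfix : ∃ u : (P : Subgroup G),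
      (∀ w : ((P : Subgroup G) ⊓ (P : Subgroup G).map (MulAut.conj a).toMonoidHom : Subgroup G),
        a⁻¹ * (w : G) * a * (u : G) * (w : G)⁻¹ = (u : G)) ∧
      ¬ MemLocalIdeal M (classInd h0 (a * (u : G))) := by
    by_contra hcon
    push_neg at hcon
    apply ha
    have hact : ∀ (w : ((P : Subgroup G) ⊓ (P : Subgroup G).map (MulAut.conj a).toMonoidHom :
        Subgroup G)) (u : (P : Subgroup G)),
        a⁻¹ * (w : G) * a * (u : G) * (w : G)⁻¹ ∈ (P : Subgroup G) := by
      intro w u
      have h1 := (mem_map_conj_iff (P : Subgroup G) a (w : G)).mp w.2.2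
      exact mul_mem (mul_mem h1 u.2) (inv_mem w.2.1)
    refine memLocalIdeal_sum_of_pgroup_act hM hQ1p
      (fun w u => ⟨a⁻¹ * (w : G) * a * (u : G) * (w : G)⁻¹, hact w u⟩) ?_ ?_
      (fun u : (P : Subgroup G) => classInd h0 (a * (u : G))) ?_ ?_ ?_
    · intro u
      apply Subtype.ext
      simp
    · intro w1 w2 u
      apply Subtype.ext
      simp only [Subgroup.coe_mul]
      group
    · intro u
      exact (isRClass_classInd hMp h0).2 _
    · intro w u
      show classInd h0 (a * (a⁻¹ * (w : G) * a * (u : G) * (w : G)⁻¹)) = classInd h0 (a * (u : G))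
      rw [← (isClassFunction_classInd h0) (a * (u : G)) (w : G)]
      congr 1
      group
    · intro u hu
      refine hcon u ?_
      intro w
      exact congrArg Subtype.val (hu w)
  obtain ⟨u, hufix, huc⟩ := hfix
  have hconj : IsConj h0 (a * (u : G)) := by
    by_contra hc
    apply huc
    unfold classInd
    rw [if_neg hc]
    exact memLocalIdeal_zero hMp
  obtain ⟨c, hc⟩ := isConj_iff.mp hconj
  have hydef : Cfsg.IsDefectClass M b (a * (u : G)) := by
    rw [← hc]
    exact Cfsg.Agent.Lib.Helper77.isDefectClass_conj hh0 c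
  have hmapeq : (P : Subgroup G).map (MulAut.conj (a * (u : G))).toMonoidHom =
      (P : Subgroup G).map (MulAut.conj a).toMonoidHom := by
    ext g
    rw [mem_map_conj_iff, mem_map_conj_iff]
    have e : (a * (u : G))⁻¹ * g * (a * (u : G)) = (u : G)⁻¹ * (a⁻¹ * g * a) * (u : G) := by group
    rw [e]
    constructor
    · intro h
      have := mul_mem (mul_mem u.2 h) (inv_mem u.2)
      convert this using 1
      group
    · intro h
      exact mul_mem (mul_mem (inv_mem u.2) h) u.2
  have hQ1cent : ((P : Subgroup G) ⊓ (P : Subgroup G).map (MulAut.conj a).toMonoidHom :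
      Subgroup G) ≤ Subgroup.centralizer ({a * (u : G)} : Set G) := by
    intro w hw
    rw [Subgroup.mem_centralizer_iff]
    intro y hy
    rw [Set.mem_singleton_iff] at hy
    subst hy
    have h1 := hufix ⟨w, hw⟩
    simp only at h1
    have h2 : a * (u : G) = a * (a⁻¹ * w * a * (u : G) * w⁻¹) := by rw [h1]
    have h3 : a * (a⁻¹ * w * a * (u : G) * w⁻¹) = w * (a * (u : G)) * w⁻¹ := by group
    rw [h3] at h2
    calc a * (u : G) * w = w * (a * (u : G)) * w⁻¹ * w := by rw [← h2]
      _ = w * (a * (u : G)) := by group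
  obtain ⟨Sy, hSy⟩ := IsPGroup.exists_le_sylow (hQ1p.comap_subtype
    (K := Subgroup.centralizer ({a * (u : G)} : Set G)))
  have hD' : Cfsg.IsDefectGroup p M b
      ((Sy : Subgroup (Subgroup.centralizer ({a * (u : G)} : Set G))).map
        (Subgroup.centralizer ({a * (u : G)} : Set G)).subtype) := ⟨a * (u : G), hydef, Sy, rfl⟩
  obtain ⟨x, hx⟩ := Cfsg.Agent.Lib.Helper77.isDefectGroup_conj hM b hb hD hD'
  have hDx : D.map (MulAut.conj x).toMonoidHom = D := by
    ext g
    rw [mem_map_conj_iff]
    constructor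
    · intro h
      have := hDn.conj_mem _ h x
      convert this using 1
      group
    · intro h
      have := hDn.conj_mem _ h x⁻¹
      simpa using this
  rw [hDx] at hx
  refine ⟨a * (u : G), hydef, ⟨Sy, hx.symm⟩, ?_⟩
  rw [hmapeq]
  apply le_antisymm
  · intro w hw
    have h1 : (⟨w, hQ1cent hw⟩ : Subgroup.centralizer ({a * (u : G)} : Set G)) ∈
        (Sy : Subgroup (Subgroup.centralizer ({a * (u : G)} : Set G))) := by
      apply hSy
      rw [Subgroup.mem_comap]
      exact hw
    rw [← hx]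
    exact ⟨⟨w, hQ1cent hw⟩, h1, rfl⟩
  · refine le_inf (Cfsg.Agent.Lib.Helper84.normal_pgroup_le_sylow hDn hDp P) ?_
    intro d hd
    rw [mem_map_conj_iff]
    apply Cfsg.Agent.Lib.Helper84.normal_pgroup_le_sylow hDn hDp P
    have := hDn.conj_mem _ hd a⁻¹
    simpa using this

end

end Cfsg.Agent.Lib.Helper16
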