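import Mathlib
import Cfsg.Prelude.Def_Blocks
import Cfsg.Agent.Lib.Helper16.Green
import Cfsg.Agent.Lib.Helper52.KleinSylow
import Cfsg.Agent.Lib.Helper77.Degree
import Cfsg.Agent.Lib.Helper78.BlockOrth
import Cfsg.Agent.Lib.Helper80.CharOps
import Cfsg.Agent.Lib.Helper75.CharInd
import Cfsg.Agent.Lib.Helper3.CharCore
import Cfsg.Agent.Lib.Helper50.Burnside
import Cfsg.Agent.S0928
import Cfsg.Agent.S0944

/-!
# The principal 2-block of a group with Klein four Sylow 2-subgroups and one class of involutions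
-/

set_option autoImplicit false

namespace Cfsg.Agent.Lib.Helper16

open Cfsg
open Cfsg.Agent.Lib.Helper77 (trivIrr)
open scoped ComplexConjugate

section
variable {G : Type*} [Group G] [Fintype G] {M : Ideal Cfsg.AlgInt}

/-- a member of the principal block other than the trivial character does not vanish on the
elements of order `p` (if there are any) -/
theorem exists_ne_zero_of_mem_principalBlock {p : ℕ} [Fact p.Prime] (hM : Cfsg.IsPModular p M)
    (ζ : Cfsg.IrrCharacter G) (hζ : ζ ∈ Cfsg.principalBlock M G) (hne : ζ ≠ trivIrr G) :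
    ∃ g : G, orderOf g = p ∧ (ζ : G → ℂ) g ≠ 0 := by
  have hMp := isPrime_of_isPModular hM
  have hp : p.Prime := Fact.out
  by_contra hcon
  push Not at hcon
  have h1 := Cfsg.Agent.S0928.result p ζ hcon
  obtain ⟨-, hpos, hdvd⟩ := Cfsg.Agent.Lib.Helper79.irr_charDegree ζ.2
  have h2 : ¬ p ∣ Nat.card G / Cfsg.charDegree (ζ : G → ℂ) := by
    intro hdiv
    have hG : Nat.card G ≠ 0 := Nat.card_pos.ne'
    have hq : Nat.card G / Cfsg.charDegree (ζ : G → ℂ) ≠ 0 := by
      intro h0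
      rw [h0] at hdiv
      have := Nat.div_mul_cancel hdvd
      rw [h0, zero_mul] at this
      exact hG this.symm
    have h3 : (Nat.card G / Cfsg.charDegree (ζ : G → ℂ)).factorization p = 0 := by
      rw [Nat.factorization_div hdvd]
      simp [h1]
    have h4 := (hp.dvd_iff_one_le_factorization hq).mp hdiv
    omega
  have h5 := Cfsg.Agent.Lib.Helper77.blockOf_eq_singleton_of_defect_zero hM ζ h2
  have h6 : trivIrr G ∈ Cfsg.blockOf M (ζ : G → ℂ) := sameBlock_symm hζ
  rw [h5] at h6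
  exact hne (Set.mem_singleton_iff.mp h6).symm

/-- the multiplicity of the trivial character of a subgroup of order four on which `ζ` takes a
constant integer value off the identity: a congruence for the degree -/
theorem four_dvd_degree_sub (P : Subgroup G) [Fintype P] (hP4 : Nat.card P = 4)
    (ζ : Cfsg.IrrCharacter G) (n : ℤ) (hn : ∀ u : P, u ≠ 1 → (ζ : G → ℂ) u = n) :
    (4 : ℤ) ∣ (Cfsg.charDegree (ζ : G → ℂ) : ℤ) - n := by
  classical
  obtain ⟨h1, -, -⟩ := Cfsg.Agent.Lib.Helper79.irr_charDegree ζ.2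
  have hc1 := Cfsg.Agent.Lib.Helper75.isCharacter_res P
    (Cfsg.Agent.Lib.Helper3.isCharacter_of_irr ζ.2)
  obtain ⟨k, hk⟩ := Cfsg.Agent.Lib.Helper80.classInner_nat hc1
    (Cfsg.Agent.Lib.Helper80.isCharacter_one (G := P))
  unfold Cfsg.classInner at hk
  have hsum : ∑ u : P, (ζ : G → ℂ) u * conj ((fun _ : P => (1 : ℂ)) u) =
      (Cfsg.charDegree (ζ : G → ℂ) : ℂ) + 3 * (n : ℂ) := by
    rw [← Finset.add_sum_erase Finset.univ _ (Finset.mem_univ (1 : P))]
    simp only [map_one, mul_one, OneMemClass.coe_one]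
    rw [h1]
    congr 1
    rw [Finset.sum_congr rfl (fun u hu => hn u (Finset.ne_of_mem_erase hu)), Finset.sum_const,
      Finset.card_erase_of_mem (Finset.mem_univ _), Finset.card_univ, ← Nat.card_eq_fintype_card,
      hP4]
    simp
  rw [hsum, hP4] at hk
  have h2 : ((Cfsg.charDegree (ζ : G → ℂ) : ℤ) : ℂ) + 3 * (n : ℂ) = 4 * ((k : ℤ) : ℂ) := by
    push_cast at hk ⊢
    field_simp at hk
    linear_combination hk
  have h3 : (Cfsg.charDegree (ζ : G → ℂ) : ℤ) + 3 * n = 4 * (k : ℤ) := by exact_mod_cast h2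
  exact ⟨(k : ℤ) - n, by linarith⟩

/-- **Brauer.** The principal `2`-block of a group with Klein four Sylow `2`-subgroups and one
class of involutions, given the value `4` of the sum of squares at an involution. -/
theorem klein_principal (hM : Cfsg.IsPModular 2 M) (P : Sylow 2 G)
    (hP : IsKleinFour (P : Subgroup G))
    (hone : ∀ s t : G, orderOf s = 2 → orderOf t = 2 → IsConj s t)
    (z0 : G) (hz0 : orderOf z0 = 2)
    (hsum : ∑ᶠ ζ ∈ Cfsg.principalBlock M G, ‖(ζ : G → ℂ) z0‖ ^ 2 = 4) :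
    ∃ ζ₂ ζ₃ ζ₄ : Cfsg.IrrCharacter G, ∃ ε : ℤ, (ε = 1 ∨ ε = -1) ∧
      (ζ₂ : G → ℂ) ≠ (fun _ => 1) ∧ (ζ₃ : G → ℂ) ≠ (fun _ => 1) ∧ ζ₂ ≠ ζ₃ ∧ ζ₂ ≠ ζ₄ ∧ ζ₃ ≠ ζ₄ ∧
      Cfsg.principalBlock M G = {χ : Cfsg.IrrCharacter G |
        (χ : G → ℂ) = (fun _ => 1) ∨ χ = ζ₂ ∨ χ = ζ₃ ∨ χ = ζ₄} ∧
      (∀ z : G, orderOf z = 2 → (ζ₂ : G → ℂ) z = 1 ∧ (ζ₃ : G → ℂ) z = (ε : ℂ) ∧
        (ζ₄ : G → ℂ) z = -1) ∧
      (4 : ℤ) ∣ (Cfsg.charDegree (ζ₂ : G → ℂ) : ℤ) - 1 ∧
      (4 : ℤ) ∣ (Cfsg.charDegree (ζ₃ : G → ℂ) : ℤ) - ε ∧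
      (4 : ℤ) ∣ (Cfsg.charDegree (ζ₄ : G → ℂ) : ℤ) + 1 ∧
      ∀ y : G, Odd (orderOf y) →
        1 + (ζ₂ : G → ℂ) y + (ε : ℂ) * (ζ₃ : G → ℂ) y - (ζ₄ : G → ℂ) y = 0 := by
  classical
  have hf2 : Fact (Nat.Prime 2) := ⟨Nat.prime_two⟩
  have hMp := isPrime_of_isPModular hM
  have : Fintype (Cfsg.IrrCharacter G) := Fintype.ofFinite _
  have : Fintype (P : Subgroup G) := Fintype.ofFinite _
  have hB0 : Cfsg.IsPBlock M (Cfsg.principalBlock M G) := ⟨trivIrr G, rfl⟩
  have htriv : trivIrr G ∈ Cfsg.principalBlock M G := mem_blockOf_self hMp (trivIrr G)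
  choose nz hnz _ using fun ζ : Cfsg.IrrCharacter G => Cfsg.Agent.S0944.result ζ z0 hz0
  have hinv : ∀ (ζ : Cfsg.IrrCharacter G) (z : G), orderOf z = 2 →
      (ζ : G → ℂ) z = (nz ζ : ℂ) := by
    intro ζ z hz
    obtain ⟨c, hc⟩ := isConj_iff.mp (hone z0 z hz0 hz)
    rw [← hc, irrCharacter_conj_eq, hnz]
  have hnztriv : nz (trivIrr G) = 1 := by
    have := hnz (trivIrr G)
    rw [Cfsg.Agent.Lib.Helper77.trivIrr_apply] at this
    exact_mod_cast this.symm
  set B0f : Finset (Cfsg.IrrCharacter G) :=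
    Finset.univ.filter (fun ζ => ζ ∈ Cfsg.principalBlock M G) with hB0f
  have hmemB : ∀ ζ, ζ ∈ B0f ↔ ζ ∈ Cfsg.principalBlock M G := by
    intro ζ
    rw [hB0f, Finset.mem_filter]
    simp
  have hsum' : ∑ ζ ∈ B0f, (nz ζ) ^ 2 = 4 := by
    have h1 : ∑ᶠ ζ ∈ Cfsg.principalBlock M G, ‖(ζ : G → ℂ) z0‖ ^ 2 =
        ∑ ζ ∈ B0f, ‖(ζ : G → ℂ) z0‖ ^ 2 := by
      rw [finsum_mem_eq_finite_toFinset_sum _ (Set.toFinite _)]
      apply Finset.sum_congr _ (fun _ _ => rfl)
      ext ζ
      rw [Set.Finite.mem_toFinset, hmemB]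
    rw [h1] at hsum
    have h2 : ∀ ζ : Cfsg.IrrCharacter G, ‖(ζ : G → ℂ) z0‖ ^ 2 = (((nz ζ) ^ 2 : ℤ) : ℝ) := by
      intro ζ
      rw [hnz]
      push_cast
      rw [Complex.norm_intCast]
      exact sq_abs _
    rw [Finset.sum_congr rfl (fun ζ _ => h2 ζ), ← Int.cast_sum] at hsum
    exact_mod_cast hsum
  set T : Finset (Cfsg.IrrCharacter G) := B0f.erase (trivIrr G) with hT
  have hsumT : ∑ ζ ∈ T, (nz ζ) ^ 2 = 3 := by
    have h := Finset.add_sum_erase B0f (fun ζ => (nz ζ) ^ 2) ((hmemB _).mpr htriv)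
    rw [hsum', hnztriv] at h
    linarith
  have hnz0 : ∀ ζ ∈ T, nz ζ ≠ 0 := by
    intro ζ hζ h0
    rw [hT, Finset.mem_erase] at hζ
    obtain ⟨g, hg, hne⟩ := exists_ne_zero_of_mem_principalBlock hM ζ ((hmemB ζ).mp hζ.2) hζ.1
    apply hne
    rw [hinv ζ g hg, h0]
    simp
  have hpm : ∀ ζ ∈ T, nz ζ = 1 ∨ nz ζ = -1 := by
    intro ζ hζ
    have h1 : (nz ζ) ^ 2 ≤ 3 := by
      rw [← hsumT]
      exact Finset.single_le_sum (f := fun i => (nz i) ^ 2) (fun i _ => sq_nonneg (nz i)) hζ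
    have h2 := hnz0 ζ hζ
    have h4 : -1 ≤ nz ζ := by nlinarith
    have h5 : nz ζ ≤ 1 := by nlinarith
    omega
  have hsq1 : ∀ ζ ∈ T, (nz ζ) ^ 2 = 1 := by
    intro ζ hζ
    rcases hpm ζ hζ with h | h <;> rw [h] <;> norm_num
  have hcard : T.card = 3 := by
    have h := hsumT
    rw [Finset.sum_congr rfl hsq1, Finset.sum_const, nsmul_eq_mul, mul_one] at h
    exact_mod_cast h
  have horth : ∀ y : G, Odd (orderOf y) → ∑ ζ ∈ B0f, (ζ : G → ℂ) y * (nz ζ : ℂ) = 0 := by
    intro y hy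
    have h2 : ¬ 2 ∣ orderOf y := by
      intro h
      exact (Nat.not_even_iff_odd.mpr hy) (even_iff_two_dvd.mpr h)
    have h3 : 2 ∣ orderOf z0 := by rw [hz0]
    have h1 := Cfsg.Agent.Lib.Helper78.block_orth_regular_singular hM _ hB0 h2 h3
    rw [finsum_mem_eq_sum_ite] at h1
    have h4 : ∑ ζ ∈ B0f, (ζ : G → ℂ) y * (nz ζ : ℂ) =
        ∑ a : Cfsg.IrrCharacter G, if a ∈ Cfsg.principalBlock M G then
          (a : G → ℂ) y * (a : G → ℂ) z0⁻¹ else 0 := by
      rw [hB0f, Finset.sum_filter]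
      apply Finset.sum_congr rfl
      intro ζ _
      split_ifs
      · rw [hinv ζ z0⁻¹ (by rw [orderOf_inv]; exact hz0)]
      · rfl
    rw [h4]
    exact h1
  have horth' : ∀ y : G, Odd (orderOf y) →
      1 + ∑ ζ ∈ T, (ζ : G → ℂ) y * (nz ζ : ℂ) = 0 := by
    intro y hy
    have h := horth y hy
    rw [← Finset.add_sum_erase B0f _ ((hmemB _).mpr htriv), hnztriv,
      Cfsg.Agent.Lib.Helper77.trivIrr_apply] at h
    simpa using h
  have hdeg : ∀ ζ : Cfsg.IrrCharacter G, ∃ d : ℕ, 0 < d ∧ (ζ : G → ℂ) 1 = (d : ℂ) := by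
    intro ζ
    obtain ⟨h1, hpos, -⟩ := Cfsg.Agent.Lib.Helper79.irr_charDegree ζ.2
    exact ⟨_, hpos, h1⟩
  choose deg hdegpos hdegeq using hdeg
  have horth1 : (1 : ℤ) + ∑ ζ ∈ T, (deg ζ : ℤ) * nz ζ = 0 := by
    have h := horth' 1 (by rw [orderOf_one]; exact odd_one)
    simp only [hdegeq] at h
    exact_mod_cast h
  have hplus : ∃ x ∈ T, nz x = 1 := by
    by_contra hcon
    push Not at hcon
    have hall : ∀ ζ ∈ T, nz ζ = -1 := fun ζ hζ => (hpm ζ hζ).resolve_left (hcon ζ hζ)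
    have h1 : ∑ ζ ∈ T, (deg ζ : ℤ) * nz ζ = - ∑ ζ ∈ T, (deg ζ : ℤ) := by
      rw [← Finset.sum_neg_distrib]
      apply Finset.sum_congr rfl
      intro ζ hζ
      rw [hall ζ hζ]
      ring
    rw [h1] at horth1
    have h2 : (3 : ℤ) ≤ ∑ ζ ∈ T, (deg ζ : ℤ) := by
      have h3 : ∑ ζ ∈ T, (1 : ℤ) ≤ ∑ ζ ∈ T, (deg ζ : ℤ) :=
        Finset.sum_le_sum (fun ζ _ => by exact_mod_cast hdegpos ζ)
      rw [Finset.sum_const, hcard] at h3
      simpa using h3
    linarith
  have hminus : ∃ w ∈ T, nz w = -1 := by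
    by_contra hcon
    push Not at hcon
    have hall : ∀ ζ ∈ T, nz ζ = 1 := fun ζ hζ => (hpm ζ hζ).resolve_right (hcon ζ hζ)
    have h1 : ∑ ζ ∈ T, (deg ζ : ℤ) * nz ζ = ∑ ζ ∈ T, (deg ζ : ℤ) := by
      apply Finset.sum_congr rfl
      intro ζ hζ
      rw [hall ζ hζ]
      ring
    rw [h1] at horth1
    have h2 : (0 : ℤ) ≤ ∑ ζ ∈ T, (deg ζ : ℤ) := Finset.sum_nonneg (fun ζ _ => by positivity)
    linarith
  obtain ⟨x, hxT, hx1⟩ := hplus
  obtain ⟨w, hwT, hw1⟩ := hminus
  have hxw : x ≠ w := by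
    intro h
    rw [h, hw1] at hx1
    norm_num at hx1
  have hcard2 : ((T.erase x).erase w).card = 1 := by
    rw [Finset.card_erase_of_mem (Finset.mem_erase.mpr ⟨hxw.symm, hwT⟩),
      Finset.card_erase_of_mem hxT, hcard]
  obtain ⟨v, hv⟩ := Finset.card_eq_one.mp hcard2
  have hvmem : v ∈ (T.erase x).erase w := by
    rw [hv]
    exact Finset.mem_singleton_self v
  rw [Finset.mem_erase, Finset.mem_erase] at hvmem
  obtain ⟨hvw, hvx, hvT⟩ := hvmem
  have hTeq : ∀ ζ, ζ ∈ T ↔ ζ = x ∨ ζ = v ∨ ζ = w := by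
    intro ζ
    constructor
    · intro hζ
      by_cases h1 : ζ = x
      · exact Or.inl h1
      · by_cases h2 : ζ = w
        · exact Or.inr (Or.inr h2)
        · have h3 : ζ ∈ (T.erase x).erase w :=
            Finset.mem_erase.mpr ⟨h2, Finset.mem_erase.mpr ⟨h1, hζ⟩⟩
          rw [hv, Finset.mem_singleton] at h3
          exact Or.inr (Or.inl h3)
    · rintro (rfl | rfl | rfl) <;> assumption
  have hsumT3 : ∀ f : Cfsg.IrrCharacter G → ℂ, ∑ ζ ∈ T, f ζ = f x + f v + f w := by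
    intro f
    have hTset : T = {x, v, w} := by
      ext ζ
      rw [hTeq]
      simp
    rw [hTset, Finset.sum_insert, Finset.sum_insert, Finset.sum_singleton]
    · ring
    · simp [hvw]
    · simp [hvx.symm, hxw]
  have hxtriv : x ≠ trivIrr G := (Finset.mem_erase.mp hxT).1
  have hvtriv : v ≠ trivIrr G := (Finset.mem_erase.mp hvT).1
  have hP4 : Nat.card (P : Subgroup G) = 4 := IsKleinFour.card_four
  have hPinv : ∀ (ζ : Cfsg.IrrCharacter G) (u : (P : Subgroup G)), u ≠ 1 →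
      (ζ : G → ℂ) u = (nz ζ : ℂ) := by
    intro ζ u hu
    apply hinv
    exact Cfsg.Agent.Lib.Helper52.klein_orderOf P hP u u.2 (fun h => hu (Subtype.ext h))
  refine ⟨x, v, w, nz v, hpm v hvT, ?_, ?_, hvx.symm, hxw, hvw, ?_, ?_, ?_, ?_, ?_, ?_⟩
  · intro h
    exact hxtriv (Subtype.ext h)
  · intro h
    exact hvtriv (Subtype.ext h)
  · ext χ
    rw [← hmemB, Set.mem_setOf_eq]
    constructor
    · intro hχ
      by_cases h1 : χ = trivIrr G
      · left
        rw [h1]
        rfl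
      · right
        exact (hTeq χ).mp (Finset.mem_erase.mpr ⟨h1, hχ⟩)
    · rintro (h | h)
      · have : χ = trivIrr G := Subtype.ext h
        rw [this]
        exact (hmemB _).mpr htriv
      · exact Finset.mem_of_mem_erase ((hTeq χ).mpr h)
  · intro z hz
    refine ⟨?_, hinv v z hz, ?_⟩
    · rw [hinv x z hz, hx1]
      simp
    · rw [hinv w z hz, hw1]
      simp
  · have h := four_dvd_degree_sub (P : Subgroup G) hP4 x (nz x) (hPinv x)
    rwa [hx1] at h
  · exact four_dvd_degree_sub (P : Subgroup G) hP4 v (nz v) (hPinv v)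
  · have h := four_dvd_degree_sub (P : Subgroup G) hP4 w (nz w) (hPinv w)
    rw [hw1] at h
    simpa using h
  · intro y hy
    have h := horth' y hy
    rw [hsumT3, hx1, hw1] at h
    push_cast at h
    linear_combination h

/-- in a group with Klein four Sylow `2`-subgroups the centralizer of an involution has a normal
`2`-complement of index `4` (Burnside) -/
theorem klein_centralizer_index [Finite G] (P : Sylow 2 G) (hP : IsKleinFour (P : Subgroup G))
    (z0 : G) (hz0P : z0 ∈ (P : Subgroup G)) (hz1 : z0 ≠ 1) :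
    (Cfsg.pPrimeCore 2 (Subgroup.centralizer ({z0} : Set G))).index = 2 ^ 2 ∧
      (Nat.card (Subgroup.centralizer ({z0} : Set G))).factorization 2 = 2 := by
  classical
  have hf2 : Fact (Nat.Prime 2) := ⟨Nat.prime_two⟩
  have hcomm := Cfsg.Agent.Lib.Helper52.klein_comm P hP
  have hle : (P : Subgroup G) ≤ Subgroup.centralizer ({z0} : Set G) := by
    intro u hu
    rw [Subgroup.mem_centralizer_iff]
    intro h hh
    rw [Set.mem_singleton_iff] at hh
    rw [hh]
    exact hcomm z0 hz0P u hu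
  set H : Subgroup G := Subgroup.centralizer ({z0} : Set G) with hH
  set P' : Sylow 2 H := P.subtype hle with hP'
  have hP'coe : (P' : Subgroup H) = (P : Subgroup G).subgroupOf H := Sylow.coe_subtype _ _
  have hcardP' : Nat.card (P' : Subgroup H) = 4 := by
    rw [hP'coe, Nat.card_congr (Subgroup.subgroupOfEquivOfLe hle).toEquiv]
    exact IsKleinFour.card_four
  have hNC : Subgroup.normalizer ((P' : Subgroup H) : Set H) ≤
      Subgroup.centralizer ((P' : Subgroup H) : Set H) := by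
    intro n hn
    rw [Subgroup.mem_centralizer_iff]
    intro u hu
    have huP : (u : G) ∈ (P : Subgroup G) := by
      have : u ∈ (P' : Subgroup H) := hu
      rw [hP'coe, Subgroup.mem_subgroupOf] at this
      exact this
    have hnN : (n : G) ∈ Subgroup.normalizer ((P : Subgroup G) : Set G) := by
      rw [Subgroup.mem_normalizer_iff]
      intro g
      constructor
      · intro hg
        have h1 : (⟨g, hle hg⟩ : H) ∈ (P' : Subgroup H) := by
          rw [hP'coe, Subgroup.mem_subgroupOf]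
          exact hg
        have h2 := (Subgroup.mem_normalizer_iff.mp hn ⟨g, hle hg⟩).mp h1
        rw [hP'coe, Subgroup.mem_subgroupOf] at h2
        exact h2
      · intro hg
        have hgH : g ∈ H := by
          have h3 := hle hg
          have h4 : g = (n : G)⁻¹ * ((n : G) * g * (n : G)⁻¹) * (n : G) := by group
          rw [h4]
          exact H.mul_mem (H.mul_mem (H.inv_mem n.2) h3) n.2
        have h1 : n * (⟨g, hgH⟩ : H) * n⁻¹ ∈ (P' : Subgroup H) := by
          rw [hP'coe, Subgroup.mem_subgroupOf]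
          exact hg
        have h2 := (Subgroup.mem_normalizer_iff.mp hn ⟨g, hgH⟩).mpr h1
        rw [hP'coe, Subgroup.mem_subgroupOf] at h2
        exact h2
    have hnz : (n : G) * z0 * (n : G)⁻¹ = z0 := by
      have h1 := (Subgroup.mem_centralizer_iff.mp n.2) z0 (Set.mem_singleton z0)
      rw [← h1, mul_inv_cancel_right]
    have hconjP : ∀ g ∈ (P : Subgroup G), (n : G) * g * (n : G)⁻¹ ∈ (P : Subgroup G) :=
      fun g hg => (Subgroup.mem_normalizer_iff.mp hnN g).mp hg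
    have key : (n : G) * (u : G) * (n : G)⁻¹ = (u : G) := by
      by_cases hu1 : (u : G) = 1
      · rw [hu1]
        group
      by_cases huz : (u : G) = z0
      · rw [huz]
        exact hnz
      set v : G := (n : G) * (u : G) * (n : G)⁻¹ with hv
      by_contra hvu
      have hvP : v ∈ (P : Subgroup G) := hconjP _ huP
      have hv1 : v ≠ 1 := by
        intro h
        apply hu1
        have h2 : (u : G) = (n : G)⁻¹ * v * (n : G) := by rw [hv]; group
        rw [h2, h]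
        group
      have hvz : v ≠ z0 := by
        intro h
        apply huz
        have h2 : (u : G) = (n : G)⁻¹ * v * (n : G) := by rw [hv]; group
        rw [h2, h]
        have h3 : (n : G)⁻¹ * z0 * (n : G) = (n : G)⁻¹ * ((n : G) * z0 * (n : G)⁻¹) * (n : G) := by
          rw [hnz]
        rw [h3]
        group
      have hveq : v = (u : G) * z0 :=
        Cfsg.Agent.Lib.Helper52.klein_eq_mul P hP (u : G) z0 v huP hz0P hvP hu1 hz1 huz hv1 hvu hvz
      have hswap : (n : G) * v * (n : G)⁻¹ = (u : G) := by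
        have h1 : (n : G) * ((u : G) * z0) * (n : G)⁻¹ =
            ((n : G) * (u : G) * (n : G)⁻¹) * ((n : G) * z0 * (n : G)⁻¹) := by group
        rw [hveq, h1, hnz, ← hv, hveq, mul_assoc, Cfsg.Agent.Lib.Helper52.klein_sq P hP z0 hz0P,
          mul_one]
      exact hvu (Cfsg.Agent.Lib.Helper52.no_swap_of_mem_normalizer P hcomm (n : G) hnN (u : G) v
        huP rfl hswap).symm
    apply Subtype.ext
    have h5 : (n : G) * (u : G) = (u : G) * (n : G) := by
      have h6 : (n : G) * (u : G) = ((n : G) * (u : G) * (n : G)⁻¹) * (n : G) := by group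
      rw [h6, key]
    simpa using h5.symm
  have hcompl := Cfsg.Agent.Lib.Helper50.pPrimeCore_isComplement' P' hNC
  constructor
  · rw [hcompl.symm.index_eq_card, hcardP']
    norm_num
  · have h1 := Sylow.card_eq_multiplicity P'
    rw [hcardP'] at h1
    have h2 : (2 : ℕ) ^ 2 = 2 ^ (Nat.card H).factorization 2 := by
      rw [← h1]
      norm_num
    exact (Nat.pow_right_injective (le_refl 2) h2).symm

end

end Cfsg.Agent.Lib.Helper16
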