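import Mathlib
import Cfsg.Prelude.Def_Blocks
import Cfsg.Prelude.Def_BrauerPairs
import Cfsg.Prelude.Def_OddOrderLocal
import Cfsg.Agent.Lib.Helper77.BrauerMap
import Cfsg.Agent.Lib.Helper77.LocalPairs
import Cfsg.Agent.Lib.Helper80.CharKer
import Cfsg.Agent.Lib.Helper79.ClassMult

/-!
# Kernels of blocks and the Brauer map

The averaging idempotent of a normal subgroup `N` of order prime to `p` detects whether `N`
lies in the kernel of a character.  Pushing it through the Brauer map at a `p`-subgroup `R`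
compares the kernel of a block `F` of a subgroup containing `C_G(R)` with the kernels of the
characters of `C_G(R)` on which the Brauer image of the idempotent of `F` does not vanish.
-/

set_option autoImplicit false
set_option linter.unusedSectionVars false

namespace Cfsg.Agent.Lib.Helper16

open Cfsg Cfsg.Agent.Lib.Helper77 Cfsg.Agent.Lib.Helper81

section Unif

variable {Y : Type*} [Group Y] [Fintype Y]

open scoped Classical in
/-- the averaging idempotent of a subgroup, as a coefficient function -/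
noncomputable def unif (N : Subgroup Y) : Y → ℂ :=
  fun y => if y ∈ N then (Nat.card N : ℂ)⁻¹ else 0

theorem unif_isClassFunction (N : Subgroup Y) [hN : N.Normal] :
    Cfsg.IsClassFunction Y (unif N) := by
  classical
  intro g h
  unfold unif
  have e : h * g * h⁻¹ ∈ N ↔ g ∈ N := by
    constructor
    · intro hh
      have := hN.conj_mem _ hh h⁻¹
      simpa [mul_assoc] using this
    · intro hh
      exact hN.conj_mem _ hh h
  by_cases hg : g ∈ N
  · rw [if_pos hg, if_pos (e.mpr hg)]
  · rw [if_neg hg, if_neg (fun hh => hg (e.mp hh))]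

theorem card_ne_zero_unif (N : Subgroup Y) : (Nat.card N : ℂ) ≠ 0 := by
  exact_mod_cast (Nat.card_pos (α := N)).ne'

open scoped Classical in
theorem sum_ite_mem_const (N : Subgroup Y) (c : ℂ) :
    (∑ y : Y, if y ∈ N then c else 0) = (Nat.card N : ℂ) * c := by
  classical
  rw [← Finset.sum_filter, Finset.sum_const, nsmul_eq_mul]
  congr 2
  rw [Nat.card_eq_fintype_card, Fintype.card_subtype]

open scoped Classical in
theorem sum_unif_mul (N : Subgroup Y) (φ : Y → ℂ) :
    ∑ y : Y, unif N y * φ y = (Nat.card N : ℂ)⁻¹ * ∑ y : Y, if y ∈ N then φ y else 0 := by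
  classical
  unfold unif
  rw [Finset.mul_sum]
  refine Finset.sum_congr rfl fun y _ => ?_
  by_cases hy : y ∈ N
  · rw [if_pos hy, if_pos hy]
  · rw [if_neg hy, if_neg hy, zero_mul, mul_zero]

theorem conv_unif (N : Subgroup Y) : Helper77.conv (unif N) (unif N) = unif N := by
  classical
  funext x
  rw [Helper77.conv_apply, sum_unif_mul]
  by_cases hx : x ∈ N
  · have e : ∀ y : Y, (if y ∈ N then unif N (y⁻¹ * x) else 0) =
        if y ∈ N then (Nat.card N : ℂ)⁻¹ else 0 := by
      intro y
      by_cases hy : y ∈ N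
      · rw [if_pos hy, if_pos hy]
        unfold unif
        rw [if_pos (N.mul_mem (N.inv_mem hy) hx)]
      · rw [if_neg hy, if_neg hy]
    rw [Finset.sum_congr rfl (fun y _ => e y), sum_ite_mem_const]
    unfold unif
    rw [if_pos hx, mul_inv_cancel₀ (card_ne_zero_unif N), mul_one]
  · have e : ∀ y : Y, (if y ∈ N then unif N (y⁻¹ * x) else 0) = 0 := by
      intro y
      by_cases hy : y ∈ N
      · rw [if_pos hy]
        unfold unif
        rw [if_neg]
        intro h
        apply hx
        have := N.mul_mem hy h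
        simpa using this
      · rw [if_neg hy]
    rw [Finset.sum_congr rfl (fun y _ => e y), Finset.sum_const_zero, mul_zero]
    unfold unif
    rw [if_neg hx]

open scoped Classical in
theorem omegaF_unif (N : Subgroup Y) (θ : Y → ℂ) :
    omegaF θ (unif N) = (Nat.card N : ℂ)⁻¹ * (∑ y : Y, if y ∈ N then θ y else 0) / θ 1 := by
  unfold omegaF
  rw [sum_unif_mul]

/-- the central character value at the averaging idempotent is `0` or `1` -/
theorem omegaF_unif_zero_or_one (N : Subgroup Y) [hN : N.Normal] (θ : Cfsg.IrrCharacter Y) :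
    omegaF (θ : Y → ℂ) (unif N) = 0 ∨ omegaF (θ : Y → ℂ) (unif N) = 1 := by
  have h := omegaF_conv θ (unif N) (unif_isClassFunction N)
  rw [conv_unif] at h
  by_cases h0 : omegaF (θ : Y → ℂ) (unif N) = 0
  · exact Or.inl h0
  · right
    have h2 : omegaF (θ : Y → ℂ) (unif N) * (omegaF (θ : Y → ℂ) (unif N) - 1) = 0 := by
      rw [mul_sub, mul_one, ← h, sub_self]
    rcases mul_eq_zero.mp h2 with h3 | h3
    · exact absurd h3 h0
    · exact sub_eq_zero.mp h3

/-- the central character value at the averaging idempotent of `N` is `1` exactly when `N`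
lies in the kernel -/
theorem omegaF_unif_eq_one_iff (N : Subgroup Y) (θ : Cfsg.IrrCharacter Y) :
    omegaF (θ : Y → ℂ) (unif N) = 1 ↔ ∀ n ∈ N, (θ : Y → ℂ) n = (θ : Y → ℂ) 1 := by
  classical
  have hdeg := (Cfsg.Agent.Lib.Helper79.irr_charDegree θ.2).1
  have hpos := (Cfsg.Agent.Lib.Helper79.irr_charDegree θ.2).2.1
  have hne : (θ : Y → ℂ) 1 ≠ 0 := by
    rw [hdeg]
    exact_mod_cast hpos.ne'
  have hchar : Cfsg.IsCharacter Y (θ : Y → ℂ) := by
    obtain ⟨n, ρ, -, h⟩ := θ.2
    exact ⟨n, ρ, h⟩
  rw [omegaF_unif]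
  constructor
  · intro h
    have h1 : (∑ y : Y, if y ∈ N then (θ : Y → ℂ) y else 0) =
        (Nat.card N : ℂ) * (θ : Y → ℂ) 1 := by
      have h2 := h
      rw [div_eq_iff hne, one_mul] at h2
      rw [← h2, ← mul_assoc, mul_inv_cancel₀ (card_ne_zero_unif N), one_mul]
    have h3 : (∑ y : Y, if y ∈ N then ((θ : Y → ℂ) y).re else 0) =
        ∑ y : Y, if y ∈ N then (Cfsg.charDegree (θ : Y → ℂ) : ℝ) else 0 := by
      have h4 := congrArg Complex.re h1
      rw [Complex.re_sum] at h4
      have e1 : ∀ y : Y, (if y ∈ N then (θ : Y → ℂ) y else 0).re =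
          if y ∈ N then ((θ : Y → ℂ) y).re else 0 := by
        intro y
        by_cases hy : y ∈ N
        · rw [if_pos hy, if_pos hy]
        · rw [if_neg hy, if_neg hy]; rfl
      rw [Finset.sum_congr rfl (fun y _ => e1 y)] at h4
      rw [h4, hdeg, ← Finset.sum_filter, Finset.sum_const, nsmul_eq_mul]
      have e2 : ((Finset.univ.filter (· ∈ N)).card : ℝ) = (Nat.card N : ℝ) := by
        congr 1
        rw [Nat.card_eq_fintype_card, Fintype.card_subtype]
      rw [e2]
      simp
    have hle : ∀ y : Y, (if y ∈ N then ((θ : Y → ℂ) y).re else 0) ≤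
        if y ∈ N then (Cfsg.charDegree (θ : Y → ℂ) : ℝ) else 0 := by
      intro y
      by_cases hy : y ∈ N
      · rw [if_pos hy, if_pos hy]
        exact le_trans (Complex.re_le_norm _)
          (Cfsg.Agent.Lib.Helper80.norm_char_le_charDegree hchar _)
      · rw [if_neg hy, if_neg hy]
    have h5 := (Finset.sum_eq_sum_iff_of_le (fun y _ => hle y)).mp h3
    intro n hn
    have h6 := h5 n (Finset.mem_univ _)
    rw [if_pos hn, if_pos hn] at h6
    have h7 := Cfsg.Agent.Lib.Helper80.norm_char_le_charDegree hchar n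
    have h8 : ((θ : Y → ℂ) n).im = 0 := by
      have h9 : ‖(θ : Y → ℂ) n‖ ^ 2 = ((θ : Y → ℂ) n).re ^ 2 + ((θ : Y → ℂ) n).im ^ 2 := by
        rw [Complex.sq_norm, Complex.normSq_apply]
        ring
      have h10 : ‖(θ : Y → ℂ) n‖ ^ 2 ≤ (Cfsg.charDegree (θ : Y → ℂ) : ℝ) ^ 2 :=
        pow_le_pow_left₀ (norm_nonneg _) h7 2
      rw [h9, h6] at h10
      have h11 : ((θ : Y → ℂ) n).im ^ 2 ≤ 0 := by linarith
      have h12 := sq_nonneg ((θ : Y → ℂ) n).im
      exact (pow_eq_zero_iff two_ne_zero).mp (le_antisymm h11 h12)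
    rw [hdeg]
    apply Complex.ext
    · rw [h6]; simp
    · rw [h8]; simp
  · intro h
    have h1 : (∑ y : Y, if y ∈ N then (θ : Y → ℂ) y else 0) =
        (Nat.card N : ℂ) * (θ : Y → ℂ) 1 := by
      rw [← sum_ite_mem_const]
      refine Finset.sum_congr rfl fun y _ => ?_
      by_cases hy : y ∈ N
      · rw [if_pos hy, if_pos hy, h y hy]
      · rw [if_neg hy, if_neg hy]
    rw [h1, ← mul_assoc, inv_mul_cancel₀ (card_ne_zero_unif N), one_mul, div_self hne]

theorem locInt_unif {p : ℕ} [Fact p.Prime] {M : Ideal Cfsg.AlgInt} (hM : Cfsg.IsPModular p M)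
    (N : Subgroup Y) (hp : ¬ p ∣ Nat.card N) : LocInt M (unif N) := by
  classical
  intro y
  unfold unif
  by_cases hy : y ∈ N
  · rw [if_pos hy]
    exact memLocalRing_inv_natCast hM hp
  · rw [if_neg hy]
    exact memLocalRing_zero (isPrime_of_isPModular hM)

end Unif

section Transfer

variable {G : Type*} [Group G] [Fintype G] {M : Ideal Cfsg.AlgInt}

/-- fixed points of a `p`-group acting by conjugation on a subgroup it normalizes -/
theorem card_modEq_card_inf_centralizer {p : ℕ} [Fact p.Prime] {R K : Subgroup G}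
    (hR : IsPGroup p R) (hRK : R ≤ Subgroup.normalizer (K : Set G)) :
    Nat.card K ≡ Nat.card (K ⊓ Subgroup.centralizer (R : Set G) : Subgroup G) [MOD p] := by
  classical
  have hmem : ∀ (r : R) (k : K), (r : G) * (k : G) * (r : G)⁻¹ ∈ K := fun r k =>
    (Subgroup.mem_normalizer_iff.mp (hRK r.2) (k : G)).mp k.2
  let act : MulAction R K :=
    { smul := fun r k => ⟨(r : G) * (k : G) * (r : G)⁻¹, hmem r k⟩
      one_smul := fun k => by
        apply Subtype.ext
        show ((1 : R) : G) * (k : G) * ((1 : R) : G)⁻¹ = (k : G)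
        simp
      mul_smul := fun r r' k => by
        apply Subtype.ext
        show ((r * r' : R) : G) * (k : G) * ((r * r' : R) : G)⁻¹ =
          (r : G) * ((r' : G) * (k : G) * (r' : G)⁻¹) * (r : G)⁻¹
        simp only [Subgroup.coe_mul, mul_inv_rev]
        group }
  have hsmul : ∀ (r : R) (k : K), ((r • k : K) : G) = (r : G) * (k : G) * (r : G)⁻¹ :=
    fun _ _ => rfl
  have h1 := hR.card_modEq_card_fixedPoints K
  have e : Nat.card (MulAction.fixedPoints R K) =
      Nat.card (K ⊓ Subgroup.centralizer (R : Set G) : Subgroup G) := by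
    apply Nat.card_congr
    refine ⟨fun k => ⟨((k : K) : G), ⟨(k : K).2, ?_⟩⟩, fun c => ⟨⟨(c : G), c.2.1⟩, ?_⟩,
      fun k => rfl, fun c => rfl⟩
    · show ((k : K) : G) ∈ Subgroup.centralizer (R : Set G)
      rw [Subgroup.mem_centralizer_iff]
      intro r hr
      have h2 := k.2 ⟨r, hr⟩
      have h3 := congrArg (Subtype.val : K → G) h2
      rw [hsmul] at h3
      simp only at h3
      calc r * ((k : K) : G) = r * ((k : K) : G) * r⁻¹ * r := by group
        _ = ((k : K) : G) * r := by rw [h3]
    · intro r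
      apply Subtype.ext
      rw [hsmul]
      have h2 := (Subgroup.mem_centralizer_iff.mp c.2.2) (r : G) r.2
      show (r : G) * (c : G) * (r : G)⁻¹ = (c : G)
      rw [h2]
      group
  rw [e] at h1
  exact h1

/-- **Existence of a Brauer constituent.**  If the idempotent of a block `F` of a subgroup
containing `C_G(R)` is `R`-invariant and does not vanish modulo the local ideal at some
element of `C_G(R)`, the Brauer functional at `R` of the idempotent is not in the local ideal
at some irreducible character of `C_G(R)`. -/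
theorem exists_irr_brauerOmega_ext0 {p : ℕ} [Fact p.Prime] (hM : Cfsg.IsPModular p M)
    (X : Subgroup G) [Fintype X] (F : Set (Cfsg.IrrCharacter X)) (hF : Cfsg.IsPBlock M F)
    (R : Subgroup G) (hR : IsPGroup p R) (hCX : Subgroup.centralizer (R : Set G) ≤ X)
    (hinv : InvBy R (ext0 X (Cfsg.blockCoeff F))) {y : G}
    (hy : y ∈ Subgroup.centralizer (R : Set G))
    (hne : ¬ Cfsg.MemLocalIdeal M (ext0 X (Cfsg.blockCoeff F) y)) :
    ∃ ξ : Cfsg.IrrCharacter (Subgroup.centralizer (R : Set G)),
      ¬ Cfsg.MemLocalIdeal M (Cfsg.brauerOmega R (ext0 X (Cfsg.blockCoeff F))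
        (ξ : Subgroup.centralizer (R : Set G) → ℂ)) := by
  have hMp := isPrime_of_isPModular hM
  have hfinR : Fintype (Subgroup.centralizer (R : Set G)) := Fintype.ofFinite _
  have heR : LocInt M (ext0 X (Cfsg.blockCoeff F)) :=
    locInt_ext0 hMp _ (fun k => memLocalRing_blockCoeff hMp F hF k)
  have hCinv : InvBy (Subgroup.centralizer (R : Set G)) (ext0 X (Cfsg.blockCoeff F)) :=
    invBy_ext0 hCX (blockCoeff_isClassFunction F)
  have hee : Helper77.conv (ext0 X (Cfsg.blockCoeff F)) (ext0 X (Cfsg.blockCoeff F)) =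
      ext0 X (Cfsg.blockCoeff F) := by
    rw [conv_ext0, conv_blockCoeff, Set.inter_self]
  have huc : Cfsg.IsClassFunction (Subgroup.centralizer (R : Set G))
      (res (Subgroup.centralizer (R : Set G)) (ext0 X (Cfsg.blockCoeff F))) :=
    isClassFunction_res hCinv
  have huR : LocInt M (res (Subgroup.centralizer (R : Set G))
      (ext0 X (Cfsg.blockCoeff F))) := locInt_res _ heR
  have hidem : LocIdl M (Helper77.conv (res (Subgroup.centralizer (R : Set G))
        (ext0 X (Cfsg.blockCoeff F)))
      (res (Subgroup.centralizer (R : Set G)) (ext0 X (Cfsg.blockCoeff F))) -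
      res (Subgroup.centralizer (R : Set G)) (ext0 X (Cfsg.blockCoeff F))) := by
    have h1 := locIdl_res_conv_sub hM R hR heR heR hinv hinv
    rw [hee] at h1
    have h2 := locIdl_neg h1
    rwa [neg_sub] at h2
  by_contra hall
  push Not at hall
  have hall' : ∀ ζ : Cfsg.IrrCharacter (Subgroup.centralizer (R : Set G)),
      Cfsg.MemLocalIdeal M (omegaF (ζ : Subgroup.centralizer (R : Set G) → ℂ)
        (res (Subgroup.centralizer (R : Set G)) (ext0 X (Cfsg.blockCoeff F)))) := by
    intro ζ
    rw [← brauerOmega_eq_omegaF]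
    exact hall ζ
  exact hne (locIdl_of_idem_of_omegaF hMp huc huR hidem hall' ⟨y, hy⟩)

open scoped Classical in
/-- value of the extension by zero of the averaging idempotent -/
theorem ext0_unif (X : Subgroup G) [Fintype X] (K : Subgroup X) (g : G) :
    ext0 X (unif K) g = if g ∈ K.map X.subtype then (Nat.card K : ℂ)⁻¹ else 0 := by
  by_cases hg : g ∈ X
  · rw [ext0_of_mem X _ hg]
    unfold unif
    by_cases hk : (⟨g, hg⟩ : X) ∈ K
    · have hm : g ∈ K.map X.subtype := Subgroup.mem_map.mpr ⟨⟨g, hg⟩, hk, rfl⟩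
      rw [if_pos hk, if_pos hm]
    · rw [if_neg hk, if_neg]
      rintro h
      obtain ⟨k, hk', hkg⟩ := Subgroup.mem_map.mp h
      apply hk
      have : k = ⟨g, hg⟩ := Subtype.ext hkg
      rwa [← this]
  · rw [ext0_of_not_mem X _ hg, if_neg]
    intro h
    obtain ⟨k, -, hkg⟩ := Subgroup.mem_map.mp h
    apply hg
    rw [← hkg]
    exact k.2

theorem invBy_ext0_unif (X : Subgroup G) [Fintype X] (K : Subgroup X) (R : Subgroup G)
    (hRK : R ≤ Subgroup.normalizer ((K.map X.subtype : Subgroup G) : Set G)) :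
    InvBy R (ext0 X (unif K)) := by
  classical
  intro r hr g
  rw [ext0_unif, ext0_unif]
  have h := Subgroup.mem_normalizer_iff.mp (hRK hr) g
  by_cases hg : g ∈ K.map X.subtype
  · rw [if_pos hg, if_pos (h.mp hg)]
  · rw [if_neg hg, if_neg (fun hh => hg (h.mpr hh))]

/-- the Brauer functional of the averaging idempotent of a normal subgroup `K` of `X ≥ C_G(R)`
is a multiple of the central character value at the averaging idempotent of `K ∩ C_G(R)` -/
theorem brauerOmega_ext0_unif (X : Subgroup G) [Fintype X] (K : Subgroup X) [hK : K.Normal]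
    (R : Subgroup G) [Fintype (Subgroup.centralizer (R : Set G))]
    (hCX : Subgroup.centralizer (R : Set G) ≤ X)
    (ξ : Subgroup.centralizer (R : Set G) → ℂ) :
    ∃ L : Subgroup (Subgroup.centralizer (R : Set G)), L.Normal ∧
      (∀ c : Subgroup.centralizer (R : Set G), c ∈ L ↔ (c : G) ∈ K.map X.subtype) ∧
      Cfsg.brauerOmega R (ext0 X (unif K)) ξ =
        (Nat.card L : ℂ) / (Nat.card K : ℂ) * omegaF ξ (unif L) := by
  classical
  refine ⟨(K.map X.subtype).subgroupOf (Subgroup.centralizer (R : Set G)), ?_, ?_, ?_⟩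
  · constructor
    intro l hl c
    rw [Subgroup.mem_subgroupOf] at hl ⊢
    obtain ⟨k, hk, hkl⟩ := Subgroup.mem_map.mp hl
    have hc : (c : G) ∈ X := hCX c.2
    refine Subgroup.mem_map.mpr ⟨(⟨(c : G), hc⟩ : X) * k * (⟨(c : G), hc⟩ : X)⁻¹,
      hK.conj_mem k hk _, ?_⟩
    simp only [Subgroup.coe_subtype, Subgroup.coe_mul, Subgroup.coe_inv]
    rw [show ((k : X) : G) = (l : G) from hkl]
  · intro c
    exact Subgroup.mem_subgroupOf
  · set L : Subgroup (Subgroup.centralizer (R : Set G)) :=
      (K.map X.subtype).subgroupOf (Subgroup.centralizer (R : Set G)) with hL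
    rw [brauerOmega_eq_omegaF]
    have e : res (Subgroup.centralizer (R : Set G)) (ext0 X (unif K)) =
        ((Nat.card L : ℂ) / (Nat.card K : ℂ)) • unif L := by
      funext c
      rw [res_apply, ext0_unif, Pi.smul_apply, smul_eq_mul]
      unfold unif
      have hiff : c ∈ L ↔ (c : G) ∈ K.map X.subtype := Subgroup.mem_subgroupOf
      by_cases hc : (c : G) ∈ K.map X.subtype
      · rw [if_pos hc, if_pos (hiff.mpr hc)]
        have hL0 : (Nat.card L : ℂ) ≠ 0 := card_ne_zero_unif L
        field_simp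
      · rw [if_neg hc, if_neg (fun h => hc (hiff.mp h)), mul_zero]
    rw [e, omegaF_smul']

/-- the index factor in `brauerOmega_ext0_unif` is congruent to `1` -/
theorem memLocalIdeal_card_div_sub_one {p : ℕ} [Fact p.Prime] (hM : Cfsg.IsPModular p M)
    (X : Subgroup G) [Fintype X] (K : Subgroup X) (R : Subgroup G) (hR : IsPGroup p R)
    (hRK : R ≤ Subgroup.normalizer ((K.map X.subtype : Subgroup G) : Set G))
    (hpK : ¬ p ∣ Nat.card K) (L : Subgroup (Subgroup.centralizer (R : Set G)))
    (hL : ∀ c : Subgroup.centralizer (R : Set G), c ∈ L ↔ (c : G) ∈ K.map X.subtype) :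
    Cfsg.MemLocalIdeal M ((Nat.card L : ℂ) / (Nat.card K : ℂ) - 1) := by
  have hMp := isPrime_of_isPModular hM
  have h1 := card_modEq_card_inf_centralizer hR hRK
  have e1 : Nat.card (K.map X.subtype) = Nat.card K :=
    Subgroup.card_map_of_injective (Subgroup.subtype_injective X)
  have e2 : Nat.card ((K.map X.subtype) ⊓ Subgroup.centralizer (R : Set G) : Subgroup G) =
      Nat.card L := by
    apply Nat.card_congr
    exact ⟨fun c => ⟨⟨(c : G), c.2.2⟩, (hL _).mpr c.2.1⟩,
      fun l => ⟨((l : Subgroup.centralizer (R : Set G)) : G), ⟨(hL _).mp l.2, (l : _).1.2⟩⟩,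
      fun c => rfl, fun l => rfl⟩
  rw [e1, e2] at h1
  obtain ⟨w, hw⟩ := (Nat.modEq_iff_dvd.mp h1)
  have hK0 : (Nat.card K : ℂ) ≠ 0 := card_ne_zero_unif K
  have e3 : (Nat.card L : ℂ) / (Nat.card K : ℂ) - 1 =
      (p : ℂ) * ((w : ℂ) * (Nat.card K : ℂ)⁻¹) := by
    have hw' : ((Nat.card L : ℤ) : ℂ) - ((Nat.card K : ℤ) : ℂ) = (p : ℂ) * (w : ℂ) := by
      have := congrArg (Int.cast : ℤ → ℂ) hw
      push_cast at this
      exact this
    simp only [Int.cast_natCast] at hw'
    field_simp
    rw [hw']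
  rw [e3]
  exact memLocalIdeal_mul_right hMp ((memLocalIdeal_natCast_iff hM p).mpr dvd_rfl)
    (memLocalRing_mul hMp (memLocalRing_intCast hMp w) (memLocalRing_inv_natCast hM hpK))

/-- **Kernel transfer.**  Let `F` be a block of `X ≥ C_G(R)` whose idempotent is invariant
under the `p`-subgroup `R`, and let `ξ` be an irreducible character of `C_G(R)` at which the
Brauer functional of the idempotent of `F` is not in the local ideal.  For a normal subgroup
`K` of `X` of order prime to `p` which is normalized by `R`: `K` lies in the kernel of every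
member of `F` if and only if `K ∩ C_G(R)` lies in the kernel of `ξ`. -/
theorem ker_transfer {p : ℕ} [Fact p.Prime] (hM : Cfsg.IsPModular p M)
    (X : Subgroup G) [Fintype X] (F : Set (Cfsg.IrrCharacter X)) (hF : Cfsg.IsPBlock M F)
    (R : Subgroup G) (hR : IsPGroup p R) (hCX : Subgroup.centralizer (R : Set G) ≤ X)
    (hinv : InvBy R (ext0 X (Cfsg.blockCoeff F)))
    (ξ : Cfsg.IrrCharacter (Subgroup.centralizer (R : Set G)))
    (hξ : ¬ Cfsg.MemLocalIdeal M (Cfsg.brauerOmega R (ext0 X (Cfsg.blockCoeff F))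
      (ξ : Subgroup.centralizer (R : Set G) → ℂ)))
    (K : Subgroup X) [hK : K.Normal]
    (hRK : R ≤ Subgroup.normalizer ((K.map X.subtype : Subgroup G) : Set G))
    (hpK : ¬ p ∣ Nat.card K) :
    (∀ θ ∈ F, ∀ k ∈ K, (θ : X → ℂ) k = (θ : X → ℂ) 1) ↔
      ∀ c : Subgroup.centralizer (R : Set G), (c : G) ∈ K.map X.subtype →
        (ξ : Subgroup.centralizer (R : Set G) → ℂ) c =
          (ξ : Subgroup.centralizer (R : Set G) → ℂ) 1 := by
  have hMp := isPrime_of_isPModular hM
  have hfinR : Fintype (Subgroup.centralizer (R : Set G)) := Fintype.ofFinite _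
  have hucf : Cfsg.IsClassFunction X (unif K) := unif_isClassFunction K
  have huR : LocInt M (unif K) := locInt_unif hM K hpK
  have huinv : InvBy R (ext0 X (unif K)) := invBy_ext0_unif X K R hRK
  have hFR : LocInt M (Cfsg.blockCoeff F) := fun k => memLocalRing_blockCoeff hMp F hF k
  obtain ⟨L, hLn, hLmem, hbo⟩ := brauerOmega_ext0_unif X K R hCX
    (ξ : Subgroup.centralizer (R : Set G) → ℂ)
  have hρ := memLocalIdeal_card_div_sub_one hM X K R hR hRK hpK L hLmem
  have hρR : Cfsg.MemLocalRing M ((Nat.card L : ℂ) / (Nat.card K : ℂ)) := by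
    have := memLocalRing_add hMp (MemLocalIdeal.memLocalRing hρ) (memLocalRing_one hMp)
    rwa [sub_add_cancel] at this
  have hτ := omegaF_unif_zero_or_one L ξ
  have hτ1 := omegaF_unif_eq_one_iff L ξ
  constructor
  · intro hker
    have hz : ∀ ζ ∈ F, Cfsg.MemLocalIdeal M (omegaF (ζ : X → ℂ) (unif K - delta1)) := by
      intro ζ hζ
      rw [omegaF_sub, omegaF_delta1, (omegaF_unif_eq_one_iff K ζ).mpr (hker ζ hζ), sub_self]
      exact memLocalIdeal_zero hMp
    have h1 := brauer_eval hM R hR ξ X hCX F hFR hinv hξ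
      (locInt_sub hMp huR (locInt_delta1 hMp))
      (isClassFunction_sub hucf isClassFunction_delta1)
      (by rw [ext0_sub, ext0_delta1]; exact invBy_sub huinv (invBy_delta1 R)) hz
    rw [ext0_sub, ext0_delta1, brauerOmega_sub, brauerOmega_delta1, hbo] at h1
    rcases hτ with h0 | h0
    · rw [h0, mul_zero, zero_sub] at h1
      have := memLocalIdeal_neg h1
      rw [neg_neg] at this
      exact absurd this (not_memLocalIdeal_one hMp)
    · intro c hc
      exact hτ1.mp h0 c ((hLmem c).mpr hc)
  · intro hξker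
    have h0 : omegaF (ξ : Subgroup.centralizer (R : Set G) → ℂ) (unif L) = 1 :=
      hτ1.mpr (fun c hc => hξker c ((hLmem c).mp hc))
    rw [h0, mul_one] at hbo
    by_contra hcon
    push Not at hcon
    obtain ⟨θ₀, hθ₀, k₀, hk₀, hne⟩ := hcon
    have hθ₀0 : omegaF (θ₀ : X → ℂ) (unif K) = 0 := by
      rcases omegaF_unif_zero_or_one K θ₀ with h | h
      · exact h
      · exact absurd ((omegaF_unif_eq_one_iff K θ₀).mp h k₀ hk₀) hne
    have hz : ∀ ζ ∈ F, Cfsg.MemLocalIdeal M (omegaF (ζ : X → ℂ) (unif K)) := by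
      intro ζ hζ
      have := memLocalIdeal_omegaF_sub hMp (IsPBlock.sameBlock hMp hF hζ hθ₀) huR hucf
      rwa [hθ₀0, sub_zero] at this
    have h1 := brauer_eval hM R hR ξ X hCX F hFR hinv hξ huR hucf huinv hz
    rw [hbo] at h1
    have h2 := memLocalIdeal_sub hMp h1 hρ
    rw [sub_sub_cancel] at h2
    exact not_memLocalIdeal_one hMp h2

end Transfer

end Cfsg.Agent.Lib.Helper16
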